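import Cfsg.Agent.Local.CubicCoset

/-!
Cubic amalgams of characteristic 2 in which `Z b` is central for one vertex type: systems of
central involutions and their radius.
-/

set_option autoImplicit false

namespace Cfsg.Lib.Local.Amal.Cubic

open Subgroup MulAction
open Cfsg.Lib.Trans hiding IsSylowIn exists_isSylowIn_ge exists_isSylowIn

variable {X : Type*} [Group X] {V : Type*} [MulAction X V] {C : Cubic X V} {f g : ℤ → V}

/-- `u` and `v` are joined by a walk of length at most `k`. -/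
inductive Near (C : Cubic X V) : ℕ → V → V → Prop
  | refl (k : ℕ) (u : V) : Near C k u u
  | step {k : ℕ} {u v w : V} : Near C k u v → C.Γ.Adj v w → Near C (k + 1) u w

theorem Near.mono {k m : ℕ} {u v : V} (h : C.Near k u v) (hk : k ≤ m) : C.Near m u v := by
  induction h generalizing m with
  | refl k u => exact .refl _ _
  | step _ h2 ih =>
    obtain ⟨m, rfl⟩ : ∃ m', m = m' + 1 := ⟨m - 1, by omega⟩
    exact .step (ih (by omega)) h2

theorem Near.adj {u v : V} (h : C.Γ.Adj u v) : C.Near 1 u v := .step (.refl 0 u) h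

theorem Near.trans {k m : ℕ} {u v w : V} (h : C.Near k u v) (h' : C.Near m v w) :
    C.Near (k + m) u w := by
  induction h' with
  | refl m v => exact h.mono (by omega)
  | step _ h2 ih => exact .step (ih h) h2

theorem Near.symm {k : ℕ} {u v : V} (h : C.Near k u v) : C.Near k v u := by
  induction h with
  | refl k u => exact .refl _ _
  | step _ h2 ih => exact ((Near.adj h2.symm).trans ih).mono (by omega)

theorem Near.two {u v w : V} (h : C.Γ.Adj u v) (h' : C.Γ.Adj v w) : C.Near 2 u w :=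
  (Near.adj h).step h'

theorem Line.near (hf : C.Line f) (k : ℕ) {i j : ℤ} (h1 : j - i ≤ k) (h2 : i - j ≤ k) :
    C.Near k (f i) (f j) := by
  have key : ∀ (m : ℕ) (i : ℤ), C.Near m (f i) (f (i + m)) := by
    intro m i
    induction m with
    | zero => simpa using Near.refl 0 (f i)
    | succ m ih => exact ih.step (hf.adj (by push_cast; ring))
  by_cases h : i ≤ j
  · obtain ⟨n, hn⟩ := Int.eq_ofNat_of_zero_le (show 0 ≤ j - i by omega)
    have := key n i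
    rw [show i + n = j by omega] at this
    exact this.mono (by omega)
  · obtain ⟨n, hn⟩ := Int.eq_ofNat_of_zero_le (show 0 ≤ i - j by omega)
    have := key n j
    rw [show j + n = i by omega] at this
    exact this.symm.mono (by omega)

theorem Near.exists_line {k : ℕ} {u v : V} (h : C.Near k u v) :
    ∃ (m : ℕ) (f : ℤ → V), m ≤ k ∧ C.Line f ∧ f 0 = u ∧ f m = v := by
  induction h with
  | refl k u =>
    obtain ⟨b, hb⟩ := C.exists_adj u
    obtain ⟨f, hf, e1, -⟩ := exists_line_edge hb 0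
    exact ⟨0, f, by omega, hf, e1, e1⟩
  | @step k u v w _ hvw ih =>
    obtain ⟨n, f, hn, hf, e1, e2⟩ := ih
    by_cases h : w = f (n - 1)
    · rcases n with _ | n
      · exact ⟨1, _, by omega, hf.rev 0, by simpa using e1, by simpa using h.symm⟩
      · exact ⟨n, f, by omega, hf, e1, by rw [h]; congr 1; push_cast; ring⟩
    · obtain ⟨g, hg, e3, e4⟩ := hf.ext_right n (e2 ▸ hvw) h
      exact ⟨n + 1, g, by omega, hg, (e3 0 (by omega)).trans e1, by push_cast; exact e4⟩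

theorem Line.ext_left2 (hf : C.Line f) (i : ℤ) {a e : V} (h1 : C.Γ.Adj (f i) a)
    (h2 : a ≠ f (i + 1)) (h3 : C.Γ.Adj a e) (h4 : e ≠ f i) :
    ∃ g, C.Line g ∧ (∀ j, i ≤ j → g j = f j) ∧ g (i - 1) = a ∧ g (i - 2) = e := by
  obtain ⟨g, hg, e1, e2⟩ := hf.ext_left i h1 h2
  obtain ⟨g', hg', e3, e4⟩ := hg.ext_left (i - 1) (e2 ▸ h3)
    (by rw [sub_add_cancel, e1 i le_rfl]; exact h4)
  exact ⟨g', hg', fun j hj => (e3 j (by omega)).trans (e1 j hj), (e3 _ le_rfl).trans e2,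
    by rw [← e4]; congr 1; ring⟩

theorem mem_norm_of (C : Cubic X V) {a : V} {N : Subgroup X} (hN : ∀ n ∈ N, n • a = a) {x : X}
    (h : ∀ n ∈ N, x * n * x⁻¹ ∈ N) : x ∈ normalizer (N : Set X) := by
  have := C.fin a
  have : Finite N := finite_of_le (K := stabilizer X a) hN
  exact mem_normalizer_fintype (S := (N : Set X)) h

theorem conj_mem_closure {P : Set X} {x : X} (h : ∀ w ∈ P, x * w * x⁻¹ ∈ closure P) :
    ∀ n ∈ closure P, x * n * x⁻¹ ∈ closure P := by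
  intro n hn
  induction hn using closure_induction with
  | mem w hw => exact h w hw
  | one => simp
  | mul a b _ _ ha hb => simpa [mul_assoc] using mul_mem ha hb
  | inv a _ ha => simpa [mul_assoc] using inv_mem ha

theorem fix_of_closure {P : Set X} {a : V} (h : ∀ w ∈ P, w • a = a) :
    ∀ n ∈ closure P, n • a = a :=
  fun _ hn => (closure_le (stabilizer X a)).mpr h hn

theorem mul_smul_fix {x y : X} {a : V} (hx : x • a = a) (hy : y • a = a) : (x * y) • a = a := by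
  rw [mul_smul, hy, hx]

theorem inv_smul_fix {x : X} {a : V} (hx : x • a = a) : x⁻¹ • a = a := by
  rw [inv_smul_eq_iff, hx]

/-- An equivariant system of central involutions at the vertices of type `t`. -/
structure ZS (C : Cubic X V) where
  z : V → X
  t : Bool
  h2 : C.CharTwo
  cen : ∀ b, C.τ b = t → C.Cen b
  ne : ∀ b, C.τ b = t → z b ≠ 1
  eq_one : ∀ b, C.τ b ≠ t → z b = 1
  mem : ∀ {b a}, C.Γ.Adj b a → z b ∈ C.Ze b a
  equiv : ∀ (x : X) (b : V), z (x • b) = x * z b * x⁻¹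

theorem exists_zs (h2 : C.CharTwo) {b₀ : V} (hc : C.Cen b₀) : Nonempty C.ZS := by
  classical
  obtain ⟨a₀, ha₀⟩ := C.exists_adj b₀
  obtain ⟨z₀, hz, hz1⟩ := exists_Ze_ne_one ha₀
  have hZ := Ze_le_Z ha₀ hz
  let z : V → X := fun v => if h : C.τ b₀ = C.τ v then
    (vertex_trans h).choose * z₀ * (vertex_trans h).choose⁻¹ else 1
  have key : ∀ x : X, z (x • b₀) = x * z₀ * x⁻¹ := by
    intro x
    have h : C.τ b₀ = C.τ (x • b₀) := (C.ty_smul x b₀).symm
    simp only [z, dif_pos h]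
    have h1 := (vertex_trans h).choose_spec
    generalize (vertex_trans h).choose = y at h1 ⊢
    have h3 := hc (x⁻¹ * y) (by rw [mul_smul, h1, inv_smul_smul]) z₀ hZ
    calc y * z₀ * y⁻¹ = x * (x⁻¹ * y * z₀) * y⁻¹ := by group
      _ = x * z₀ * x⁻¹ := by rw [h3]; group
  have one : ∀ v, C.τ v ≠ C.τ b₀ → z v = 1 := fun v h => dif_neg (Ne.symm h)
  refine ⟨⟨z, C.τ b₀, h2, fun b hb => hc.of_ty hb.symm, fun b hb => ?_, one, fun {b a} hab => ?_,
    fun x b => ?_⟩⟩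
  · obtain ⟨x, rfl⟩ := vertex_trans hb.symm
    rw [key]
    simpa using hz1
  · by_cases hb : C.τ b = C.τ b₀
    · obtain ⟨x, rfl⟩ := vertex_trans hb.symm
      have h1 : C.Γ.Adj b₀ (x⁻¹ • a) := by simpa using C.inv x⁻¹ _ _ hab
      have h3 : z₀ ∈ C.Ze b₀ (x⁻¹ • a) := mem_Ze.mpr ⟨Z_fix hZ, (Z_le_Q_self h2 _ hZ).2 _ h1,
        fun t t1 _ => hc t t1 z₀ hZ, (mem_Ze.mp hz).2.2.2⟩
      rw [key]
      simpa using conj_mem_Ze x h3
    · rw [one b hb]; exact one_mem _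
  · by_cases hb : C.τ b = C.τ b₀
    · obtain ⟨y, rfl⟩ := vertex_trans hb.symm
      rw [← mul_smul, key, key]; group
    · rw [one b hb, one _ (by rwa [C.ty_smul])]; simp

namespace ZS

variable (S : C.ZS) {a a' b c d e : V} {x y : X}

theorem ty_of_ne (h : S.z b ≠ 1) : C.τ b = S.t := by
  by_contra h1
  exact h (S.eq_one b h1)

theorem ty_two (hb : C.τ b = S.t) (h1 : C.Γ.Adj a b) (h2 : C.Γ.Adj a c) : C.τ c = S.t :=
  (ty_eq_of_adj h2 h1 rfl).trans hb

theorem sq (b : V) : S.z b * S.z b = 1 := by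
  obtain ⟨a, ha⟩ := C.exists_adj b
  exact (mem_Ze.mp (S.mem ha)).2.2.2

theorem inv (b : V) : (S.z b)⁻¹ = S.z b := inv_eq_of_mul_eq_one_right (S.sq b)

theorem conj_eq (h : x • b = c) : x * S.z b * x⁻¹ = S.z c := by rw [← h, S.equiv]

theorem conj_fix (h : x • b = b) : x * S.z b * x⁻¹ = S.z b := S.conj_eq h

theorem comm (h : x • b = b) : x * S.z b = S.z b * x := mul_inv_eq_iff_eq_mul.mp (S.conj_fix h)

theorem mem_Q_self (b : V) : S.z b ∈ C.Q b := by
  obtain ⟨a, ha⟩ := C.exists_adj b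
  exact ⟨(mem_Ze.mp (S.mem ha)).1, fun e he => (mem_Ze.mp (S.mem he)).2.1⟩

theorem mem_Q_adj (h : C.Γ.Adj a b) : S.z b ∈ C.Q a :=
  S.h2 a _ ((S.mem_Q_self b).2 a h.symm) fun _ hq => (S.comm (hq.2 b h)).symm

theorem comm_adj (h1 : C.Γ.Adj a b) (h2 : C.Γ.Adj a c) : S.z b * S.z c = S.z c * S.z b :=
  S.comm ((S.mem_Q_adj h1).2 c h2)

theorem eq_one_of_Ze (hb : C.τ b = S.t) (h : C.Γ.Adj a b) (hx : x ∈ C.Ze a b)
    (hl : LocTrans C.Γ (centralizer {x}) a) : x = 1 :=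
  eq_one_of_central h (mem_Ze.mp hx).1 (mem_Ze.mp hx).2.1 hl (locTrans_of_stab_le fun k hk =>
    mem_centralizer_singleton_iff.mpr (S.cen b hb k hk x (Ze_le_Z' h hx)))

theorem z_ne (hb : C.τ b = S.t) (h1 : C.Γ.Adj a b) (h2 : C.Γ.Adj a c) (hbc : b ≠ c) :
    S.z b ≠ S.z c := by
  intro h
  refine S.ne b hb (S.eq_one_of_Ze hb h1 (by rw [Ze_comm]; exact S.mem h1.symm) ?_)
  refine locTrans_of_two_edges h1 h2 hbc (fun k _ hk => ?_) fun k _ hk => ?_
  · exact mem_centralizer_singleton_iff.mpr (S.comm hk)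
  · rw [h]; exact mem_centralizer_singleton_iff.mpr (S.comm hk)

theorem mul3 (h1 : C.Γ.Adj a b) (h2 : C.Γ.Adj a c) (h3 : C.Γ.Adj a d) (hbc : b ≠ c) (hdb : d ≠ b)
    (hdc : d ≠ c) : S.z b * S.z c = S.z d := by
  by_cases hb : C.τ b = S.t
  swap
  · rw [S.eq_one b hb, S.eq_one c fun h => hb (S.ty_two h h2 h1),
      S.eq_one d fun h => hb (S.ty_two h h3 h1), one_mul]
  have c1 := S.comm_adj h1 h2
  have c2 := S.comm_adj h1 h3
  have c3 := S.comm_adj h2 h3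
  obtain ⟨k, k1, k2, k3⟩ := exists_not_Q h1
  obtain ⟨m, m1, m2, m3⟩ := exists_not_Q h2
  have e1 : k * (S.z b * S.z c * S.z d) = S.z b * S.z c * S.z d * k := by
    have f1 := S.conj_fix k2
    have f2 := S.conj_eq (smul_eq_other k1 h1 k2 k3 h2 hbc.symm h3 hdb hdc)
    have f3 := S.conj_eq (smul_eq_other k1 h1 k2 k3 h3 hdb h2 hbc.symm hdc.symm)
    calc k * (S.z b * S.z c * S.z d)
        = (k * S.z b * k⁻¹) * ((k * S.z c * k⁻¹) * (k * S.z d * k⁻¹)) * k := by group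
      _ = _ := by rw [f1, f2, f3, ← c3]; group
  have e2 : m * (S.z b * S.z c * S.z d) = S.z b * S.z c * S.z d * m := by
    have f1 := S.conj_fix m2
    have f2 := S.conj_eq (smul_eq_other m1 h2 m2 m3 h1 hbc h3 hdc hdb)
    have f3 := S.conj_eq (smul_eq_other m1 h2 m2 m3 h3 hdc h1 hbc hdb.symm)
    calc m * (S.z b * S.z c * S.z d)
        = (m * S.z b * m⁻¹) * (m * S.z c * m⁻¹) * (m * S.z d * m⁻¹) * m := by group
      _ = S.z d * (S.z c * S.z b) * m := by rw [f1, f2, f3]; group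
      _ = (S.z d * S.z b) * S.z c * m := by rw [← c1]; group
      _ = S.z b * (S.z d * S.z c) * m := by rw [← c2]; group
      _ = _ := by rw [← c3]; group
  have e3 : S.z b * S.z c * S.z d * (S.z b * S.z c * S.z d) = 1 := by
    calc S.z b * S.z c * S.z d * (S.z b * S.z c * S.z d)
        = S.z b * S.z c * (S.z d * S.z b) * S.z c * S.z d := by group
      _ = S.z b * (S.z c * S.z b) * (S.z d * S.z c) * S.z d := by rw [← c2]; group
      _ = (S.z b * S.z b) * (S.z c * S.z c) * (S.z d * S.z d) := by rw [← c1, ← c3]; group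
      _ = 1 := by simp [S.sq]
  have hQ : S.z b * S.z c * S.z d ∈ C.Q a :=
    mul_mem (mul_mem (S.mem_Q_adj h1) (S.mem_Q_adj h2)) (S.mem_Q_adj h3)
  have e4 : ∀ q ∈ C.Q a, S.z b * S.z c * S.z d * q = q * (S.z b * S.z c * S.z d) := by
    intro q hq
    calc S.z b * S.z c * S.z d * q = S.z b * S.z c * (q * S.z d) := by
          rw [S.comm (hq.2 d h3)]; group
      _ = S.z b * (q * S.z c) * S.z d := by rw [S.comm (hq.2 c h2)]; group
      _ = (q * S.z b) * S.z c * S.z d := by rw [S.comm (hq.2 b h1)]; group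
      _ = _ := by group
  have e5 := S.eq_one_of_Ze hb h1 (mem_Ze_of_comm h1 hQ e3 e4 k1 k2 k3 e1.symm)
    (locTrans_of_two h1 h2 hbc (mem_centralizer_singleton_iff.mpr e1) k1 k2 k3
      (mem_centralizer_singleton_iff.mpr e2) m1 m2 m3)
  rw [mul_eq_one_iff_eq_inv, S.inv] at e5
  exact e5

theorem fix_of_comm (hb : C.τ b = S.t) (h : C.Γ.Adj a b) (hx : x • a = a)
    (hc : x * S.z b = S.z b * x) : x • b = b := by
  by_contra h1
  refine S.z_ne hb h (adj_smul hx h) (Ne.symm h1) ?_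
  rw [S.equiv, hc, mul_inv_cancel_right]

theorem sib (h1 : C.Γ.Adj a b) (h2 : C.Γ.Adj a c) (h3 : C.Γ.Adj a d) (hc : c ≠ b) (hd : d ≠ b) :
    S.z d = S.z c ∨ S.z d = S.z c * S.z b := by
  by_cases h : d = c
  · exact Or.inl (h ▸ rfl)
  · exact Or.inr (S.mul3 h2 h1 h3 hc h hd).symm

theorem conj_not_Q (h1 : C.Γ.Adj a b) (h2 : C.Γ.Adj a c) (hc : c ≠ b) (xa : x • a = a)
    (xb : x • b = b) (hx : x ∉ C.Q a) : x * S.z c * x⁻¹ = S.z c * S.z b := by
  rw [← S.equiv]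
  exact (S.mul3 h2 h1 (adj_smul xa h2) hc (smul_ne_self xa h1 xb hx h2 hc) (smul_ne xb hc)).symm

theorem conj_edge (h1 : C.Γ.Adj a b) (h2 : C.Γ.Adj a c) (hc : c ≠ b) (xa : x • a = a)
    (xb : x • b = b) : x * S.z c * x⁻¹ = S.z c ∨ x * S.z c * x⁻¹ = S.z c * S.z b := by
  rw [← S.equiv]
  exact S.sib h1 h2 (adj_smul xa h2) hc (smul_ne xb hc)

theorem exists_sib (h1 : C.Γ.Adj a b) (h2 : C.Γ.Adj a c) (hc : c ≠ b) :
    ∃ d, C.Γ.Adj a d ∧ d ≠ b ∧ d ≠ c ∧ S.z d = S.z c * S.z b := by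
  obtain ⟨d, h3, h4, h5⟩ := C.exists_third a b c
  exact ⟨d, h3, h4, h5, (S.mul3 h2 h1 h3 hc h5 h4).symm⟩

/-- vertices at distance four with a common middle vertex of type `t` carry different elements -/
theorem inj2 {c' : V} (hb : C.τ b = S.t) (h1 : C.Γ.Adj b a) (h2 : C.Γ.Adj b a') (haa : a ≠ a')
    (h3 : C.Γ.Adj a c) (hc : c ≠ b) (h4 : C.Γ.Adj a' c') (hc' : c' ≠ b) : S.z c ≠ S.z c' := by
  intro h
  have key : ∀ {a a' c c' : V}, C.Γ.Adj b a → C.Γ.Adj b a' → C.Γ.Adj a c → c ≠ b →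
      C.Γ.Adj a' c' → c' ≠ b → S.z c = S.z c' → ∀ e, C.Γ.Adj a e →
      ∃ e', C.Γ.Adj a' e' ∧ S.z e = S.z e' := by
    intro a a' c c' h1 h2 h3 hc h4 hc' h e he
    by_cases heb : e = b
    · exact ⟨b, h2.symm, heb ▸ rfl⟩
    rcases S.sib h1.symm h3 he hc heb with h5 | h5
    · exact ⟨c', h4, h5.trans h⟩
    · obtain ⟨d, d1, -, -, d4⟩ := S.exists_sib h2.symm h4 hc'
      exact ⟨d, d1, by rw [h5, d4, h]⟩
  let N : Set X := {w | ∃ e, C.Γ.Adj a e ∧ w = S.z e}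
  have hN : ∀ k : X, k • a = a → ∀ n ∈ N, k * n * k⁻¹ ∈ N := by
    rintro k hk n ⟨e, he, rfl⟩
    exact ⟨k • e, adj_smul hk he, (S.equiv k e).symm⟩
  have hN' : ∀ k : X, k • a' = a' → ∀ n ∈ N, k * n * k⁻¹ ∈ N := by
    rintro k hk n ⟨e, he, rfl⟩
    obtain ⟨e', he', h5⟩ := key h1 h2 h3 hc h4 hc' h e he
    obtain ⟨e'', he'', h6⟩ := key h2 h1 h4 hc' h3 hc h.symm _ (adj_smul hk he')
    exact ⟨e'', he'', by rw [h5, ← S.equiv, h6]⟩
  have n1 : ∀ k : X, k • a = a → k ∈ normalizer N := fun k hk n =>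
    ⟨hN k hk n, fun hn => by simpa [mul_assoc] using hN k⁻¹ (inv_smul_fix hk) _ hn⟩
  have n2 : ∀ k : X, k • a' = a' → k ∈ normalizer N := fun k hk n =>
    ⟨hN' k hk n, fun hn => by simpa [mul_assoc] using hN' k⁻¹ (inv_smul_fix hk) _ hn⟩
  refine S.ne b hb (eq_one_of_set h1.symm (N := N) (H := normalizer N) (K := normalizer N)
    (locTrans_of_stab_le n1)
    (locTrans_of_two_edges h1 h2 haa (fun k _ hk => n1 k hk) fun k _ hk => n2 k hk) ?_
    (fun k hk n hn => (hk n).mp hn) (fun k hk n hn => (hk n).mp hn) _ ⟨b, h1.symm, rfl⟩)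
  rintro n ⟨e, he, rfl⟩
  exact ⟨(S.mem_Q_adj he).1, (S.mem_Q_adj he).2 b h1.symm⟩

/-! ### The radius -/

/-- The least distance at which an element `z b` acts nontrivially on the neighbours. -/
noncomputable def n : ℕ := sInf {m : ℕ | ∃ f, C.Line f ∧ S.z (f 0) ∉ C.Q (f m)}

/-- The line `f` starts with a critical pair. -/
def Cr (f : ℤ → V) : Prop := S.z (f 0) ∉ C.Q (f S.n)

theorem exists_ty : ∃ b, C.τ b = S.t := by
  obtain ⟨a⟩ := C.conn.nonempty
  obtain ⟨b, hb⟩ := C.exists_adj a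
  by_cases h : C.τ a = S.t
  · exact ⟨a, h⟩
  · exact ⟨b, bool_eq_of_ne_of_ne (C.ty_adj hb).symm (Ne.symm h)⟩

theorem exists_cr : ∃ f, C.Line f ∧ S.Cr f := by
  have : {m : ℕ | ∃ f, C.Line f ∧ S.z (f 0) ∉ C.Q (f m)}.Nonempty := by
    obtain ⟨b, hb⟩ := S.exists_ty
    have : ∃ v : V, S.z b • v ≠ v := by
      by_contra h
      push Not at h
      exact S.ne b hb (C.faith _ h)
    obtain ⟨v, hv⟩ := this
    obtain ⟨n, f, hf, e1, e2⟩ := C.exists_line_join b v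
    exact ⟨n, f, hf, fun h => hv (by rw [← e2, ← e1]; exact h.1)⟩
  exact Nat.sInf_mem this

theorem zQ {k : ℕ} (h : C.Near k a b) (hk : k < S.n) : S.z a ∈ C.Q b := by
  obtain ⟨m, f, hm, hf, rfl, rfl⟩ := h.exists_line
  by_contra h
  exact absurd (Nat.sInf_le (s := {m : ℕ | ∃ f, C.Line f ∧ S.z (f 0) ∉ C.Q (f m)}) ⟨f, hf, h⟩)
    (not_le.mpr (lt_of_le_of_lt hm hk))

theorem zfix {k : ℕ} (h : C.Near k a b) (hk : k ≤ S.n) : S.z a • b = b := by
  cases h with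
  | refl => exact (S.mem_Q_self a).1
  | step h1 h2 => exact (S.zQ h1 (by omega)).2 _ h2

theorem zcomm {k : ℕ} (h : C.Near k a b) (hk : k ≤ S.n) : S.z a * S.z b = S.z b * S.z a :=
  S.comm (S.zfix h hk)

theorem lQ (hf : C.Line f) {k : ℕ} {i j : ℤ} (h : C.Near k a (f i)) (h1 : j - i + k < S.n)
    (h2 : i - j + k < S.n) : S.z a ∈ C.Q (f j) :=
  S.zQ (h.trans (hf.near (S.n - 1 - k) (by omega) (by omega))) (by omega)

theorem lfix (hf : C.Line f) {k : ℕ} {i j : ℤ} (h : C.Near k a (f i)) (h1 : j - i + k ≤ S.n)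
    (h2 : i - j + k ≤ S.n) : S.z a • f j = f j :=
  S.zfix (h.trans (hf.near (S.n - k) (by omega) (by omega))) (by omega)

theorem lQ0 (hf : C.Line f) {i j : ℤ} (h1 : j - i < S.n) (h2 : i - j < S.n) :
    S.z (f i) ∈ C.Q (f j) := S.lQ hf (.refl 0 _) (by simpa using h1) (by simpa using h2)

theorem lfix0 (hf : C.Line f) {i j : ℤ} (h1 : j - i ≤ S.n) (h2 : i - j ≤ S.n) :
    S.z (f i) • f j = f j := S.lfix hf (.refl 0 _) (by simpa using h1) (by simpa using h2)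

variable {S}

theorem Cr.ty (h : S.Cr f) : C.τ (f 0) = S.t :=
  S.ty_of_ne fun h1 => h (by rw [h1]; exact one_mem _)

theorem Cr.congr (h : S.Cr f) (h0 : g 0 = f 0) (h1 : g S.n = f S.n) : S.Cr g := by
  unfold Cr at h ⊢
  rwa [h0, h1]

theorem Cr.smul (h : S.Cr f) (x : X) : S.Cr (fun j => x • f j) := by
  unfold Cr at h ⊢
  rwa [S.equiv, conj_mem_Q_iff]

variable (S)

theorem three_le : 3 ≤ S.n := by
  obtain ⟨f, hf, hc⟩ := S.exists_cr
  by_contra hn
  have : S.n = 0 ∨ S.n = 1 ∨ S.n = 2 := by omega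
  unfold Cr at hc
  rcases this with h | h | h <;> rw [h] at hc
  · exact hc (S.mem_Q_self _)
  · exact hc (S.mem_Q_adj (hf.adj' (by simp)))
  simp only [Nat.cast_ofNat] at hc
  have a1 : C.Γ.Adj (f 2) (f 1) := hf.adj' rfl
  have a3 : C.Γ.Adj (f 2) (f 3) := hf.adj rfl
  have key : ∀ {a c : V}, C.Γ.Adj (f 2) a → C.Γ.Adj a c → c ≠ f 2 → ∀ q ∈ C.Q (f 2),
      S.z c * q * (S.z c)⁻¹ = q ∨ S.z c * q * (S.z c)⁻¹ = q * S.z (f 2) := by
    intro a c h1 h2 h3 q hq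
    have c1 := S.comm_adj h1.symm h2
    rcases S.conj_edge h1.symm h2 h3 (inv_smul_fix (hq.2 a h1)) (inv_smul_fix hq.1) with h4 | h4
    · left
      calc S.z c * q * (S.z c)⁻¹ = q * (q⁻¹ * S.z c * q⁻¹⁻¹) * (S.z c)⁻¹ := by group
        _ = q := by rw [h4]; group
    · right
      calc S.z c * q * (S.z c)⁻¹ = q * (q⁻¹ * S.z c * q⁻¹⁻¹) * (S.z c)⁻¹ := by group
        _ = q * S.z (f 2) := by rw [h4, ← c1]; group
  obtain ⟨k, -, k1, k2⟩ := C.trans (f 2) (f 1) (f 3) a1 a3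
  have b1 : C.Γ.Adj (f 3) (k • f 0) := k2 ▸ C.inv k _ _ (hf.adj' rfl)
  have b2 : k • f 0 ≠ f 2 := smul_ne k1 (hf.ne (i := 0) rfl)
  have b3 : S.z (k • f 0) ∉ C.Q (f 2) := by
    rw [S.equiv, ← k1, conj_mem_Q_iff]; exact hc
  have t1 : S.z (f 0) • f 2 = f 2 := (S.mem_Q_adj (hf.adj' (i := 1) rfl)).2 _ a1.symm
  have t2 : S.z (k • f 0) • f 2 = f 2 := (S.mem_Q_adj b1).2 _ a3.symm
  have hno := mul_no_fix a1 a3 (hf.ne rfl) t1 (S.mem_Q_adj (hf.adj' (i := 1) rfl)).1 hc t2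
    (S.mem_Q_adj b1).1 b3
  set D := S.z (f 0) * S.z (k • f 0) with hD
  have dfix : D • f 2 = f 2 := mul_smul_fix t1 t2
  have k3 : ∀ q ∈ C.Q (f 2), D * q * D⁻¹ = q ∨ D * q * D⁻¹ = q * S.z (f 2) := by
    intro q hq
    have e1 : D * q * D⁻¹ = S.z (f 0) * (S.z (k • f 0) * q * (S.z (k • f 0))⁻¹) * (S.z (f 0))⁻¹ := by
      rw [hD]; group
    have e2 := S.conj_fix t1
    rw [e1]
    rcases key a3 b1 b2 q hq with h4 | h4 <;> rw [h4]
    · exact key a1 (hf.adj' rfl) (hf.ne rfl) q hq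
    · have e3 : S.z (f 0) * (q * S.z (f 2)) * (S.z (f 0))⁻¹ =
          S.z (f 0) * q * (S.z (f 0))⁻¹ * S.z (f 2) := by
        conv_rhs => rw [← e2]
        group
      rw [e3]
      rcases key a1 (hf.adj' (j := 0) rfl) (hf.ne rfl) q hq with h5 | h5 <;> rw [h5]
      · exact Or.inr rfl
      · left; rw [mul_assoc, S.sq, mul_one]
  have hD2 : D * D ∈ C.Q (f 2) := by
    refine S.h2 _ _ (mul_smul_fix dfix dfix) fun q hq => ?_
    rw [← mul_inv_eq_iff_eq_mul]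
    have e1 : D * D * q * (D * D)⁻¹ = D * (D * q * D⁻¹) * D⁻¹ := by group
    rw [e1]
    rcases k3 q hq with h4 | h4
    · rw [h4, h4]
    · have e3 : D * (q * S.z (f 2)) * D⁻¹ = D * q * D⁻¹ * (D * S.z (f 2) * D⁻¹) := by group
      rw [h4, e3, h4, S.conj_fix dfix, mul_assoc, S.sq, mul_one]
  exact (three_cycle dfix hno a1).1 (by rw [← mul_smul]; exact hD2.2 _ a1)

end ZS

end Cfsg.Lib.Local.Amal.Cubic
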