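import Cfsg.Agent.Local.CubicZ1

/-!
Systems of central involutions in cubic amalgams: an odd radius is three, and for an even radius
all lines are critical.
-/

set_option autoImplicit false

namespace Cfsg.Lib.Local.Amal.Cubic.ZS

open Subgroup MulAction
open Cfsg.Lib.Trans hiding IsSylowIn exists_isSylowIn_ge exists_isSylowIn

variable {X : Type*} [Group X] {V : Type*} [MulAction X V] {C : Cubic X V} {f g : ℤ → V}
  {S : C.ZS} {a a' b c d e : V} {x y : X}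

theorem all_of_elem (hf : C.Line f) (hc : S.Cr f) {h : ℤ → V} (hh : C.Line h)
    (ht : C.τ (h 0) ≠ C.τ (f S.n)) (hy : ∀ j : ℤ, 0 ≤ j → j < S.n → y • h j = h j)
    (hyQ : y ∉ C.Q (h 0)) (hg : C.Line g) (hτ : C.τ (g 0) = S.t) : S.Cr g := by
  have h3 := S.three_le
  have hst : ∀ s : Bool, ∃ (h : ℤ → V) (y : X), C.Line h ∧ C.τ (h 0) = s ∧
      (∀ j : ℤ, 0 ≤ j → j ≤ (S.n - 1 : ℕ) → y • h j = h j) ∧ y ∉ C.Q (h 0) := by
    intro s
    by_cases hs : C.τ (f S.n) = s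
    · refine ⟨_, S.z (f 0), hf.rev S.n, by simpa using hs, fun j j0 j1 => ?_, by simpa [Cr] using hc⟩
      exact S.lfix0 hf (by omega) (by omega)
    · exact ⟨h, y, hh, bool_eq_of_ne_of_ne ht (Ne.symm hs), fun j j0 j1 => hy j j0 (by omega), hyQ⟩
  obtain ⟨x, hx⟩ := arc_trans _ hst S.n (by omega) hf hg (hc.ty.trans hτ.symm)
  exact (hc.smul x).congr (hx 0 le_rfl (by omega)).symm (hx _ (by omega) le_rfl).symm

theorem all_of_shift (e : ℤ) (hrev : ∀ f, C.Line f → S.Cr f → S.Cr (fun j => f (e - j)))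
    (hsh : ∀ f, C.Line f → S.Cr f → S.Cr (fun j => f (j + -2)))
    (hg : C.Line g) (hτ : C.τ (g 0) = S.t) : S.Cr g := by
  obtain ⟨f, hf, hc⟩ := S.exists_cr
  have h3 := S.three_le
  have hsh' : ∀ f, C.Line f → S.Cr f → S.Cr (fun j => f (j + 2)) := by
    intro f hf hc
    have l1 := hf.rev e
    have l2 := l1.shift (-2)
    have h1 := hrev _ l2 (hsh _ l1 (hrev f hf hc))
    exact h1.congr (congrArg f (by ring)) (congrArg f (by ring))
  have hall : ∀ f, C.Line f → ∀ k : ℤ, (S.Cr f ↔ S.Cr (fun j => f (j + 2 * k))) := by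
    intro f hf k
    induction k using Int.induction_on with
    | zero => simp
    | succ k ih =>
      rw [ih]
      constructor
      · intro h; exact (hsh' _ (hf.shift _) h).congr (congrArg f (by ring)) (congrArg f (by ring))
      · intro h; exact (hsh _ (hf.shift _) h).congr (congrArg f (by ring)) (congrArg f (by ring))
    | pred k ih =>
      rw [ih]
      constructor
      · intro h; exact (hsh _ (hf.shift _) h).congr (congrArg f (by ring)) (congrArg f (by ring))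
      · intro h; exact (hsh' _ (hf.shift _) h).congr (congrArg f (by ring)) (congrArg f (by ring))
  obtain ⟨x, h0, h1⟩ := edge_trans (hf.adj (i := 0) (j := 1) rfl) (hg.adj (i := 0) (j := 1) rfl)
    (hc.ty.trans hτ.symm)
  have hl := (hf.smul x).glue hg 1 h1 (by simpa [h0] using hg.ne (i := 0) (j := 2) rfl)
  have h2 := (hall _ (hf.smul x) (-S.n)).mp (hc.smul x)
  have h4 : S.Cr (fun j => if j ≤ 1 then x • f j else g j) := by
    rw [hall _ hl (-S.n)]
    refine h2.congr ?_ ?_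
    · exact if_pos (by omega)
    · exact if_pos (by omega)
  refine h4.congr ?_ ?_
  · simp [h0]
  · rw [if_neg (by omega)]

theorem ty_at (hf : C.Line f) {i : ℤ} (h : C.τ (f i) = S.t) (k : ℤ) {j : ℤ} (hj : j = i + 2 * k) :
    C.τ (f j) = S.t := by
  rw [hj, hf.ty_even, h]

theorem ty_at_ne (hf : C.Line f) {i : ℤ} (h : C.τ (f i) = S.t) (k : ℤ) {j : ℤ}
    (hj : j = i + (2 * k + 1)) : C.τ (f j) ≠ S.t := by
  rw [hj, ← h]
  exact hf.ty_odd i k

/-- the elements at distance at most two from `b` -/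
def P (S : C.ZS) (b : V) : Set X := {w | ∃ a e, C.Γ.Adj b a ∧ C.Γ.Adj a e ∧ w = S.z e}

theorem P_conj (h : x • b = c) {w : X} (hw : w ∈ S.P b) : x * w * x⁻¹ ∈ S.P c := by
  obtain ⟨a, e, h1, h2, rfl⟩ := hw
  exact ⟨x • a, x • e, h ▸ C.inv x _ _ h1, C.inv x _ _ h2, (S.equiv x e).symm⟩

/-! ### Odd radius -/

theorem odd_E1 {m : ℕ} (hm : S.n = 2 * m + 1) (hf : C.Line f) (hc : S.Cr f) :
    S.z (f 2) = S.z (f (S.n - 1)) ∧ S.z (f (S.n + 1)) ∉ C.Q (f 1) := by
  have h3 := S.three_le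
  have e1 := S.conj_not_Q (hf.adj' (i := S.n) (j := S.n - 1) (by ring))
    (hf.adj (i := S.n) (j := S.n + 1) rfl) (hf.ne' (by ring)) (S.lfix0 hf (by omega) (by omega))
    (S.lfix0 hf (by omega) (by omega)) hc
  have s1 : S.z (f (S.n + 1)) • f 1 = f 1 := S.lfix0 hf (by omega) (by omega)
  have s2 : S.z (f (S.n + 1)) • f 2 = f 2 := S.lfix0 hf (by omega) (by omega)
  have hs : S.z (f (S.n + 1)) ∉ C.Q (f 1) := by
    intro h
    rw [← S.comm (h.2 _ (hf.adj' (j := 0) rfl)), mul_inv_cancel_right] at e1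
    exact S.ne _ (ty_at hf hc.ty m (j := S.n - 1) (by omega)) (by simpa using e1)
  refine ⟨?_, hs⟩
  have e2 := S.conj_not_Q (hf.adj (i := 1) (j := 2) rfl) (hf.adj' (i := 1) (j := 0) rfl)
    (hf.ne rfl) s1 s2 hs
  have c1 := S.comm_adj (hf.adj' (i := S.n) (j := S.n - 1) (by ring))
    (hf.adj (i := S.n) (j := S.n + 1) rfl)
  rw [S.inv] at e1 e2
  have q1 := S.sq (f 0)
  have q2 := S.sq (f (S.n + 1))
  generalize S.z (f 0) = t, S.z (f (S.n + 1)) = s, S.z (f 2) = u, S.z (f (S.n - 1)) = v at *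
  calc u = t * (t * u) := by rw [← mul_assoc, q1, one_mul]
    _ = t * s * t * s := by rw [← e2]; group
    _ = v := by rw [e1, ← c1, mul_assoc, q2, mul_one]

theorem odd_E2 {m : ℕ} (hm : S.n = 2 * m + 1) (h5 : 5 ≤ S.n) (hf : C.Line f) (hc : S.Cr f) :
    S.z (f (-2)) ∈ C.Q (f (S.n - 2)) := by
  by_contra h
  have h1 : S.Cr (fun j => f (j + -2)) := by
    unfold Cr
    simpa [sub_eq_add_neg] using h
  have h2 := (odd_E1 hm (hf.shift (-2)) h1).1
  simp only [add_neg_cancel] at h2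
  exact hc (h2 ▸ S.lQ0 hf (by omega) (by omega))

theorem odd_E3 {m : ℕ} (hm : S.n = 2 * m + 1) (hf : C.Line f) (hc : S.Cr f) :
    ∃ g, C.Line g ∧ (∀ j, 0 ≤ j → g j = f j) ∧ S.z (g (-2)) ∉ C.Q (f (S.n - 1)) := by
  have h3 := S.three_le
  by_contra hcon
  push Not at hcon
  obtain ⟨e1, hs⟩ := odd_E1 hm hf hc
  have s1 : S.z (f (S.n + 1)) • f 1 = f 1 := S.lfix0 hf (by omega) (by omega)
  have s2 : S.z (f (S.n + 1)) • f 2 = f 2 := S.lfix0 hf (by omega) (by omega)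
  have a01 : C.Γ.Adj (f 0) (f 1) := hf.adj rfl
  have a12 : C.Γ.Adj (f 1) (f 2) := hf.adj rfl
  have f0 : ∀ w ∈ closure (S.P (f 0)), w • f 0 = f 0 := fix_of_closure (by
    rintro w ⟨a, e, h1, h2, rfl⟩
    exact S.zfix (Near.two h2.symm h1.symm) (by omega))
  have f1 : ∀ w ∈ closure (S.P (f 0)), w • f 1 = f 1 := fix_of_closure (by
    rintro w ⟨a, e, h1, h2, rfl⟩
    exact S.zfix ((Near.two h2.symm h1.symm).step a01) (by omega))
  have n1 : ∀ k : X, k • f 0 = f 0 → k ∈ normalizer (closure (S.P (f 0)) : Set X) :=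
    fun k hk => C.mem_norm_of f0 (conj_mem_closure fun w hw => subset_closure (P_conj hk hw))
  have n2 : S.z (f (S.n + 1)) ∈ normalizer (closure (S.P (f 0)) : Set X) := by
    refine C.mem_norm_of f0 (conj_mem_closure ?_)
    rintro w ⟨a, e, h1, h2, rfl⟩
    have k1 : ∀ e, C.Γ.Adj (f 1) e → S.z (f (S.n + 1)) * S.z e * (S.z (f (S.n + 1)))⁻¹ ∈
        closure (S.P (f 0)) := fun e he =>
      subset_closure ⟨f 1, _, a01, adj_smul s1 he, (S.equiv _ e).symm⟩
    by_cases ha : a = f 1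
    · exact k1 e (ha ▸ h2)
    by_cases he : e = f 0
    · exact k1 e (he ▸ a01.symm)
    obtain ⟨g, hg, g1, g2, g3⟩ := hf.ext_left2 0 h1 ha h2 he
    have k2 := hcon g hg g1
    rw [show (-2 : ℤ) = 0 - 2 by ring, g3] at k2
    have hw : S.z e ∈ closure (S.P (f 0)) := subset_closure ⟨a, e, h1, h2, rfl⟩
    have hu : S.z (f 2) ∈ closure (S.P (f 0)) := subset_closure ⟨f 1, f 2, a01, a12, rfl⟩
    have c1 := S.comm s2
    have q2 := S.sq (f (S.n + 1))
    have q3 := S.sq e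
    rcases S.conj_edge (hf.adj' (i := S.n) (j := S.n - 1) (by ring))
      (hf.adj (i := S.n) (j := S.n + 1) rfl) (hf.ne' (by ring))
      (k2.2 _ (hf.adj (by ring))) k2.1 with k3 | k3
    · rw [mul_inv_eq_iff_eq_mul] at k3
      rw [← k3, mul_inv_cancel_right]
      exact hw
    · rw [← e1, S.inv] at k3
      have : S.z (f (S.n + 1)) * S.z e * (S.z (f (S.n + 1)))⁻¹ = S.z (f 2) * S.z e := by
        rw [S.inv]
        generalize S.z e = w, S.z (f (S.n + 1)) = s, S.z (f 2) = u at *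
        calc s * w * s = s * w * s * (w * w) := by rw [q3, mul_one]
          _ = s * (w * s * w) * w := by group
          _ = s * s * u * w := by rw [k3]; group
          _ = u * w := by rw [q2, one_mul]
      rw [this]
      exact mul_mem hu hw
  obtain ⟨k, k1, k2, k3⟩ := exists_not_Q a01.symm
  have := eq_bot_of_normalizer a01 (fun w hw => ⟨f0 w hw, f1 w hw⟩) (locTrans_of_stab_le n1)
    (locTrans_of_two a01.symm a12 (hf.ne rfl) (n1 k k2) k1 k2 k3 n2 s1 s2 hs)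
  refine S.ne _ hc.ty ?_
  rw [← mem_bot, ← this]
  exact subset_closure ⟨f 1, f 0, a01, a01.symm, rfl⟩

theorem odd_eq_three {m : ℕ} (hm : S.n = 2 * m + 1) : S.n = 3 := by
  have h3 := S.three_le
  by_contra h
  obtain ⟨f, hf, hc⟩ := S.exists_cr
  obtain ⟨g, hg, g1, g2⟩ := odd_E3 hm hf hc
  have hcg : S.Cr g := hc.congr (g1 0 le_rfl) (g1 _ (by omega))
  have e2 := odd_E2 hm (by omega) hg hcg
  rw [← g1 _ (by omega)] at g2
  have := all_of_elem (y := S.z (g (-2))) hg hcg (hg.rev (S.n - 1))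
    (C.ty_adj (hg.adj (by ring))) (fun j j0 j1 => by
      by_cases hj : j = 0
      · exact e2.2 _ (hg.adj (by omega))
      · exact S.lfix0 hg (by omega) (by omega)) (by simpa using g2) (hg.shift (-2))
    (ty_at hg hcg.ty (-1) (by ring))
  unfold Cr at this
  exact this (by simpa [sub_eq_add_neg] using e2)

/-! ### Even radius -/

/-- no long arc ending in a vertex of the other type has a stabiliser moving a neighbour of the
end vertex -/
def NoOpen (S : C.ZS) : Prop := ∀ (h : ℤ → V) (y : X), C.Line h → C.τ (h 0) ≠ S.t →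
  (∀ j : ℤ, 0 ≤ j → j < S.n → y • h j = h j) → y ∈ C.Q (h 0)

theorem cr_swap (hf : C.Line f) (hc : S.Cr f) :
    C.Γ.Adj (f S.n) (S.z (f 0) • f (S.n + 1)) ∧ S.z (f 0) • f (S.n + 1) ≠ f (S.n + 1) ∧
      S.z (f 0) • f (S.n + 1) ≠ f (S.n - 1) ∧
      C.Γ.Adj (S.z (f 0) • f (S.n + 1)) (S.z (f 0) • f (S.n + 2)) ∧
      S.z (f 0) • f (S.n + 2) ≠ f S.n := by
  have h3 := S.three_le
  have t1 : S.z (f 0) • f S.n = f S.n := S.lfix0 hf (by omega) (by omega)
  have t2 : S.z (f 0) • f (S.n - 1) = f (S.n - 1) := S.lfix0 hf (by omega) (by omega)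
  exact ⟨adj_smul t1 (hf.adj rfl), smul_ne_self t1 (hf.adj' (by ring)) t2 hc (hf.adj rfl)
    (hf.ne' (by ring)), smul_ne t2 (hf.ne' (by ring)), C.inv _ _ _ (hf.adj (by ring)),
    smul_ne t1 (hf.ne' rfl)⟩

theorem even_O1 {m : ℕ} (hm : S.n = 2 * m) (hno : S.NoOpen) (hf : C.Line f) (hc : S.Cr f) :
    S.Cr (fun j => f (S.n + 2 - j)) := by
  have h3 := S.three_le
  unfold Cr
  simp only [sub_zero, add_sub_cancel_left]
  intro h
  have h1 := hno _ (S.z (f (S.n + 2))) (hf.shift 1) (ty_at_ne hf hc.ty 0 (by ring))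
    (fun j j0 j1 => by
      by_cases hj : j = 0
      · exact h.2 _ (hf.adj' (by omega))
      · exact S.lfix0 hf (by omega) (by omega))
  obtain ⟨a1, a2, -, a4, a5⟩ := cr_swap hf hc
  refine S.inj2 (ty_at hf hc.ty m (by omega)) a1 (hf.adj rfl) a2 a4 a5
    (hf.adj (j := S.n + 2) (by ring)) (hf.ne' rfl) ?_
  rw [S.equiv, ← S.comm (h1.2 _ (hf.adj' (j := 0) rfl)), mul_inv_cancel_right]

theorem even_mid {m : ℕ} (hm : S.n = 2 * m) (hno : S.NoOpen) (hf : C.Line f) (hc : S.Cr f)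
    (hg : C.Line g) (h : ∀ j : ℤ, 2 ≤ j → j ≤ S.n → g j = f j) : S.Cr g := by
  have h3 := S.three_le
  have hl := hg.glue hf S.n (h _ (by omega) le_rfl)
    (by rw [h _ (by omega) (by omega)]; exact hf.ne (by ring))
  have h1 := even_O1 hm hno (hl.rev (S.n + 2)) ((even_O1 hm hno hf hc).congr
    (if_neg (by omega)) (by simp only [add_sub_cancel_left]; rw [if_pos (by omega), h 2 le_rfl (by omega)]))
  exact h1.congr (by simp) (by simp)

theorem even_notD {m : ℕ} (hm : S.n = 2 * m) (hb : C.τ b = S.t) (h1 : C.Γ.Adj b a)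
    (h2 : C.Γ.Adj b a') (haa : a ≠ a') : ∃ x ∈ C.Q b, x ∈ C.Q a ∧ x ∉ C.Q a' := by
  have h3 := S.three_le
  by_contra hcon
  push Not at hcon
  obtain ⟨f, hf, hc⟩ := S.exists_cr
  have hβ : C.τ (f S.n) = S.t := ty_at hf hc.ty m (by omega)
  have hD := (dProp_of_one h1 h2 haa hcon).of_ty (hb.trans hβ.symm)
  obtain ⟨a1, a2, a3, a4, a5⟩ := cr_swap hf hc
  have t1 : S.z (f 0) • f S.n = f S.n := S.lfix0 hf (by omega) (by omega)
  have t2 : S.z (f 0) • f (S.n - 1) = f (S.n - 1) := S.lfix0 hf (by omega) (by omega)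
  have b1 : C.Γ.Adj (f S.n) (f (S.n + 1)) := hf.adj rfl
  have b0 : C.Γ.Adj (f S.n) (f (S.n - 1)) := hf.adj' (by ring)
  have b2 : C.Γ.Adj (f (S.n + 1)) (f (S.n + 2)) := hf.adj (by ring)
  have b3 : f (S.n + 2) ≠ f S.n := hf.ne' rfl
  have b4 : f (S.n + 1) ≠ f (S.n - 1) := hf.ne' (by ring)
  have tt : S.z (f 0) • S.z (f 0) • f (S.n + 2) = f (S.n + 2) := by
    rw [← mul_smul, S.sq, one_smul]
  generalize S.z (f 0) • f (S.n + 1) = p' at *
  generalize hγ : S.z (f 0) • f (S.n + 2) = γ' at *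
  generalize f (S.n + 1) = p, f (S.n + 2) = γ, f (S.n - 1) = p'' at *
  unfold Cr at hc
  generalize f S.n = β at *
  have c1 : S.z γ * S.z γ' = S.z γ' * S.z γ :=
    S.zcomm (((Near.two b2.symm b1.symm).step a1).step a4) (by omega)
  have c2 := S.comm_adj a4 a1.symm
  have hw : S.z γ * S.z γ' ∈ C.Ze β p'' := by
    refine mem_Ze_of_comm b0 (mul_mem (S.zQ (Near.two b2.symm b1.symm) (by omega))
      (S.zQ (Near.two a4.symm a1.symm) (by omega))) ?_ (fun q hq => ?_) t1 t2 hc ?_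
    · rw [mul_assoc, ← mul_assoc (S.z γ'), ← c1, mul_assoc, S.sq, mul_one, S.sq]
    · rw [eq_comm, ← mul_inv_eq_iff_eq_mul]
      have e : q * (S.z γ * S.z γ') * q⁻¹ = q * S.z γ * q⁻¹ * (q * S.z γ' * q⁻¹) := by group
      rw [e]
      by_cases hp : q ∈ C.Q p
      · rw [S.conj_fix (hp.2 _ b2), S.conj_fix ((hD _ _ b1 a1 q hq hp).2 _ a4)]
      · rw [S.conj_not_Q b1.symm b2 b3 (hq.2 _ b1) hq.1 hp, S.conj_not_Q a1.symm a4 a5 (hq.2 _ a1)
          hq.1 fun h => hp (hD _ _ a1 b1 q hq h), mul_assoc, c2, ← mul_assoc (S.z β), S.sq, one_mul]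
    · rw [eq_comm, ← mul_inv_eq_iff_eq_mul]
      conv_rhs => rw [c1, ← S.conj_eq hγ, ← S.conj_eq tt]
      rw [S.conj_eq tt]
      conv_rhs => enter [2]; rw [← S.conj_eq tt]
      group
  obtain ⟨k, k1, k2, k3⟩ := exists_not_Q b1
  have e1 := S.cen β hβ k k1 _ (Ze_le_Z b0 hw)
  have e2 : k • p' = p'' := smul_eq_other k1 b1 k2 k3 a1 a2 b0 b4.symm a3.symm
  have e3 : C.Γ.Adj p'' (k • γ') := e2 ▸ C.inv k _ _ a4
  have e4 : k * S.z γ * k⁻¹ * S.z (k • γ') = S.z γ * S.z γ' := by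
    rw [S.equiv, ← mul_inv_eq_iff_eq_mul.mpr e1]; group
  rcases S.conj_edge b1.symm b2 b3 k2 k1 with e5 | e5 <;> rw [e5] at e4
  · exact S.inj2 hβ b0 a1 a3.symm e3 (smul_ne k1 a5) a4 a5 (mul_left_cancel e4)
  · obtain ⟨d, d1, d2, -, d4⟩ := S.exists_sib a1.symm a4 a5
    refine S.inj2 hβ b0 a1 a3.symm e3 (smul_ne k1 a5) d1 d2 ?_
    rw [mul_assoc] at e4
    rw [d4, c2, ← mul_left_cancel e4, ← mul_assoc, S.sq, one_mul]

theorem even_O2 {m : ℕ} (hm : S.n = 2 * m) (hno : S.NoOpen) (hf : C.Line f) (hc : S.Cr f) :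
    S.Cr (fun j => f (j + -2)) := by
  have h3 := S.three_le
  by_contra hcon
  have hs : S.z (f (S.n + 2)) ∉ C.Q (f 2) := by simpa [Cr] using even_O1 hm hno hf hc
  have a01 : C.Γ.Adj (f 0) (f 1) := hf.adj rfl
  have a12 : C.Γ.Adj (f 1) (f 2) := hf.adj rfl
  have a23 : C.Γ.Adj (f 2) (f 3) := hf.adj rfl
  have s2 : S.z (f (S.n + 2)) • f 2 = f 2 := S.lfix0 hf (by omega) (by omega)
  have s3 : S.z (f (S.n + 2)) • f 3 = f 3 := S.lfix0 hf (by omega) (by omega)
  have f1 : ∀ w ∈ closure (S.P (f 0) ∪ S.P (f 2)), w • f 1 = f 1 := fix_of_closure (by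
    rintro w (⟨a, e, h1, h2, rfl⟩ | ⟨a, e, h1, h2, rfl⟩)
    · exact S.lfix hf (Near.two h2.symm h1.symm) (by omega) (by omega)
    · exact S.lfix hf (Near.two h2.symm h1.symm) (by omega) (by omega))
  have f2 : ∀ w ∈ closure (S.P (f 0) ∪ S.P (f 2)), w • f 2 = f 2 := fix_of_closure (by
    rintro w (⟨a, e, h1, h2, rfl⟩ | ⟨a, e, h1, h2, rfl⟩)
    · exact S.lfix hf (Near.two h2.symm h1.symm) (by omega) (by omega)
    · exact S.lfix hf (Near.two h2.symm h1.symm) (by omega) (by omega))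
  have n1 : ∀ k : X, k • f 0 = f 0 → k • f 2 = f 2 →
      k ∈ normalizer (closure (S.P (f 0) ∪ S.P (f 2)) : Set X) := fun k h1 h2 =>
    C.mem_norm_of f1 (conj_mem_closure fun w hw => subset_closure
      (hw.imp (P_conj h1) (P_conj h2)))
  have n2 : ∀ k : X, k • f 0 = f 2 → k • f 2 = f 0 →
      k ∈ normalizer (closure (S.P (f 0) ∪ S.P (f 2)) : Set X) := fun k h1 h2 =>
    C.mem_norm_of f1 (conj_mem_closure fun w hw => subset_closure
      (hw.imp (P_conj h1) (P_conj h2)).symm)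
  have n3 : S.z (f (S.n + 2)) ∈ normalizer (closure (S.P (f 0) ∪ S.P (f 2)) : Set X) := by
    refine C.mem_norm_of f1 (conj_mem_closure ?_)
    have k1 : ∀ w ∈ S.P (f 2), S.z (f (S.n + 2)) * w * (S.z (f (S.n + 2)))⁻¹ ∈
        closure (S.P (f 0) ∪ S.P (f 2)) := fun w hw => subset_closure (Or.inr (P_conj s2 hw))
    rintro w (⟨a, e, h1, h2, rfl⟩ | hw)
    swap
    · exact k1 w hw
    by_cases ha : a = f 1
    · exact k1 _ ⟨f 1, e, a12.symm, ha ▸ h2, rfl⟩
    have ht : S.z (f 0) ∈ S.P (f 2) := ⟨f 1, f 0, a12.symm, a01.symm, rfl⟩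
    by_cases he : e = f 0
    · exact k1 _ (he ▸ ht)
    obtain ⟨g, hg, g1, g2, g3⟩ := hf.ext_left2 0 h1 ha h2 he
    have k2 : S.z e ∈ C.Q (f (S.n - 2)) := by
      by_contra h
      refine hcon (even_mid hm hno (hg.shift (-2)) ?_ (hf.shift (-2))
        fun j j0 j1 => (g1 _ (by omega)).symm)
      unfold Cr
      simp only
      rwa [← sub_eq_add_neg, ← sub_eq_add_neg, g3, g1 _ (by omega)]
    have k3 : ∀ j : ℤ, 0 ≤ j → j ≤ S.n - 1 → S.z e • f j = f j := by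
      intro j j0 j1
      by_cases hj : j = S.n - 1
      · exact k2.2 _ (hf.adj (by omega))
      · exact S.lfix hf (Near.two h2.symm h1.symm) (by omega) (by omega)
    have k4 : S.z e ∈ C.Q (f (S.n - 1)) := by
      simpa using hno _ (S.z e) (hf.rev (S.n - 1))
        (ty_at_ne hf hc.ty (m - 1) (by omega)) fun j j0 j1 => k3 _ (by omega) (by omega)
    have k5 : ∀ j : ℤ, 0 ≤ j → j ≤ S.n → S.z e • f j = f j := by
      intro j j0 j1
      by_cases hj : j = S.n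
      · exact k4.2 _ (hf.adj (by omega))
      · exact k3 j j0 (by omega)
    have k6 : ∀ y ∈ C.Q (f S.n), (∀ j : ℤ, 0 ≤ j → j ≤ S.n → y • f j = f j) →
        S.z (f (S.n + 2)) * y * (S.z (f (S.n + 2)))⁻¹ = y := by
      intro y hy h
      have k7 : y ∈ C.Q (f (S.n + 1)) := by
        simpa using hno _ y (hf.rev (S.n + 1)) (ty_at_ne hf hc.ty m (by omega)) fun j j0 j1 => by
          by_cases hj : j = 0
          · exact hy.2 _ (hf.adj (by omega))
          · exact h _ (by omega) (by omega)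
      rw [← S.comm (k7.2 _ (hf.adj (by ring))), mul_inv_cancel_right]
    have hw : S.z e ∈ closure (S.P (f 0) ∪ S.P (f 2)) :=
      subset_closure (Or.inl ⟨a, e, h1, h2, rfl⟩)
    by_cases k8 : S.z e ∈ C.Q (f S.n)
    · rw [k6 _ k8 k5]; exact hw
    · have t1 : ∀ j : ℤ, 0 ≤ j → j ≤ S.n → S.z (f 0) • f j = f j := fun j j0 j1 =>
        S.lfix0 hf (by omega) (by omega)
      have k9 := k6 _ (mul_mem_Q (hf.adj' (j := S.n - 1) (by ring)) (k5 _ (by omega) le_rfl)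
        (k5 _ (by omega) (by omega)) k8 (t1 _ (by omega) le_rfl) (t1 _ (by omega) (by omega)) hc)
        fun j j0 j1 => mul_smul_fix (k5 j j0 j1) (t1 j j0 j1)
      have : S.z (f (S.n + 2)) * S.z e * (S.z (f (S.n + 2)))⁻¹ = S.z e * S.z (f 0) *
          (S.z (f (S.n + 2)) * S.z (f 0) * (S.z (f (S.n + 2)))⁻¹)⁻¹ := by
        rw [← k9]; group
      rw [this]
      exact mul_mem (mul_mem hw (subset_closure (Or.inr ht))) (inv_mem (k1 _ ht))
  obtain ⟨x, x1, x2, x3⟩ := even_notD hm (ty_at hf hc.ty 1 (j := 2) rfl) (adj_smul s2 a12.symm)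
    a12.symm (smul_ne_self s2 a23 s3 hs a12.symm (hf.ne rfl))
  have x4 : x ∈ normalizer (closure (S.P (f 0) ∪ S.P (f 2)) : Set X) := by
    have x5 : (S.z (f (S.n + 2)))⁻¹ * x * (S.z (f (S.n + 2)))⁻¹⁻¹ ∈ C.Q (f 1) := by
      simpa using conj_mem_Q (S.z (f (S.n + 2)))⁻¹ x2
    have := mul_mem (mul_mem n3 (n1 _ (x5.2 _ a01.symm) (x5.2 _ a12))) (inv_mem n3)
    simpa [mul_assoc] using this
  obtain ⟨c, c1, c2, c3⟩ := C.exists_third (f 1) (f 0) (f 2)
  obtain ⟨k, k1, k2, k3⟩ := exists_not_Q c1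
  obtain ⟨y, y1, y2⟩ := exists_Q_not_Q S.h2 a12.symm
  have h02 : f 0 ≠ f 2 := hf.ne rfl
  have := eq_bot_of_normalizer a12 (fun w hw => ⟨f1 w hw, f2 w hw⟩)
    (locTrans_of_two a12 c1 c3.symm x4 (x1.2 _ a12.symm) x1.1 x3
      (n2 k (smul_eq_other k1 c1 k2 k3 a01.symm c2.symm a12 c3.symm h02.symm)
        (smul_eq_other k1 c1 k2 k3 a12 c3.symm a01.symm c2.symm h02)) k1 k2 k3)
    (locTrans_of_two a12.symm a23 (hf.ne rfl) (n1 y (y1.2 _ a01.symm) (y1.2 _ a12)) (y1.2 _ a12)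
      y1.1 y2 n3 s2 s3 hs)
  refine S.ne _ hc.ty ?_
  rw [← mem_bot, ← this]
  exact subset_closure (Or.inl ⟨f 1, f 0, a01, a01.symm, rfl⟩)

theorem even_all {m : ℕ} (hm : S.n = 2 * m) (hg : C.Line g) (hτ : C.τ (g 0) = S.t) : S.Cr g := by
  by_cases hno : S.NoOpen
  · exact all_of_shift (S.n + 2) (fun f => even_O1 hm hno) (fun f => even_O2 hm hno) hg hτ
  · unfold NoOpen at hno
    push Not at hno
    obtain ⟨h, y, hh, ht, hy, hyQ⟩ := hno
    obtain ⟨f, hf, hc⟩ := S.exists_cr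
    exact all_of_elem hf hc hh (by rwa [ty_at hf hc.ty m (j := S.n) (by omega)]) hy hyQ hg hτ

theorem cr_at {m : ℕ} (hm : S.n = 2 * m) (hf : C.Line f) {i j : ℤ} (hτ : C.τ (f i) = S.t)
    (h : j = i + S.n ∨ j = i - S.n) : S.z (f i) ∉ C.Q (f j) := by
  rcases h with rfl | rfl
  · simpa [Cr, add_comm] using even_all hm (hf.shift i) (by simpa using hτ)
  · simpa [Cr] using even_all hm (hf.rev i) (by simpa using hτ)

end Cfsg.Lib.Local.Amal.Cubic.ZS
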