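import Cfsg.Agent.Local.CubicZ2

/-!
Systems of central involutions in cubic amalgams: an even radius is four.
-/

set_option autoImplicit false

namespace Cfsg.Lib.Local.Amal.Cubic.ZS

open Subgroup MulAction
open Cfsg.Lib.Trans hiding IsSylowIn exists_isSylowIn_ge exists_isSylowIn

variable {X : Type*} [Group X] {V : Type*} [MulAction X V] {C : Cubic X V} {f g : ℤ → V}
  {S : C.ZS} {a a' b b' c d e : V} {x y r r' : X}

/-- `r` is the product of two elements at distance two from `b` in the branches away from `a` -/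
def Pr (S : C.ZS) (b a : V) (r : X) : Prop :=
  ∃ a₁ a₂ c₁ c₂, C.Γ.Adj b a₁ ∧ C.Γ.Adj b a₂ ∧ a₁ ≠ a ∧ a₂ ≠ a ∧ a₁ ≠ a₂ ∧ C.Γ.Adj a₁ c₁ ∧
    c₁ ≠ b ∧ C.Γ.Adj a₂ c₂ ∧ c₂ ≠ b ∧ r = S.z c₁ * S.z c₂

theorem exists_pr (S : C.ZS) (b a : V) : ∃ r, S.Pr b a r := by
  obtain ⟨a₁, h1, h2⟩ := C.exists_other b a
  obtain ⟨a₂, h3, h4, h5⟩ := C.exists_third b a a₁
  obtain ⟨c₁, h6, h7⟩ := C.exists_other a₁ b
  obtain ⟨c₂, h8, h9⟩ := C.exists_other a₂ b
  exact ⟨_, a₁, a₂, c₁, c₂, h1, h3, h2, h4, h5.symm, h6, h7, h8, h9, rfl⟩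

theorem Pr.smul (h : S.Pr b a r) (x : X) : S.Pr (x • b) (x • a) (x * r * x⁻¹) := by
  obtain ⟨a₁, a₂, c₁, c₂, h1, h2, h3, h4, h5, h6, h7, h8, h9, rfl⟩ := h
  have i := MulAction.injective (β := V) x
  exact ⟨x • a₁, x • a₂, x • c₁, x • c₂, C.inv x _ _ h1, C.inv x _ _ h2, i.ne h3, i.ne h4, i.ne h5,
    C.inv x _ _ h6, i.ne h7, C.inv x _ _ h8, i.ne h9, by rw [S.equiv, S.equiv]; group⟩

theorem or_mul {u v w s t : X} (q : w * w = 1) (c : w * t = t * w) (h1 : u = s ∨ u = s * w)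
    (h2 : v = t ∨ v = t * w) : u * v = s * t ∨ u * v = s * t * w := by
  rcases h1 with rfl | rfl <;> rcases h2 with rfl | rfl
  · exact Or.inl rfl
  · exact Or.inr (mul_assoc _ _ _).symm
  · exact Or.inr (by rw [mul_assoc, c, mul_assoc])
  · exact Or.inl (by rw [mul_assoc, ← c, ← mul_assoc w, q, one_mul])

theorem or_trans {u v w s : X} (q : w * w = 1) (h1 : u = v ∨ u = v * w) (h2 : v = s ∨ v = s * w) :
    u = s ∨ u = s * w := by
  rcases h1 with rfl | rfl <;> rcases h2 with rfl | rfl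
  · exact Or.inl rfl
  · exact Or.inr rfl
  · exact Or.inr rfl
  · exact Or.inl (by rw [mul_assoc, q, mul_one])

theorem Pr.unique (hab : C.Γ.Adj b a) (h : S.Pr b a r) (h' : S.Pr b a r') :
    r' = r ∨ r' = r * S.z b := by
  have hn := S.three_le
  obtain ⟨a₁, a₂, c₁, c₂, h1, h2, h3, h4, h5, h6, h7, h8, h9, rfl⟩ := h
  obtain ⟨a₁', a₂', c₁', c₂', k1, k2, k3, k4, k5, k6, k7, k8, k9, rfl⟩ := h'
  by_cases e : a₁' = a₁
  · subst e
    obtain rfl : a₂' = a₂ := third_unique hab h1 h3.symm k2 k4 k5.symm h2 h4 h5.symm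
    exact or_mul (S.sq b) (S.comm_adj h2.symm h8) (S.sib h1.symm h6 k6 h7 k7)
      (S.sib h2.symm h8 k8 h9 k9)
  · obtain rfl : a₁' = a₂ := third_unique hab h1 h3.symm k1 k3 e h2 h4 h5.symm
    obtain rfl : a₂' = a₁ := third_unique hab h2 h4.symm k2 k4 k5.symm h1 h3 h5
    refine or_trans (S.sq b) (or_mul (S.sq b) (S.comm_adj h1.symm h6) (S.sib h2.symm h8 k6 h9 k7)
      (S.sib h1.symm h6 k8 h7 k9)) ?_
    have q := S.zQ (Near.two h8.symm h2.symm) (by omega)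
    rcases S.conj_edge h1.symm h6 h7 (q.2 _ h1) q.1 with e1 | e1 <;>
      rw [mul_inv_eq_iff_eq_mul] at e1
    · exact Or.inl e1
    · exact Or.inr (by rw [e1, mul_assoc, S.comm_adj h2.symm h8, mul_assoc])

theorem Pr.conj (hab : C.Γ.Adj b a) (h : S.Pr b a r) (xb : x • b = b) (xa : x • a = a) :
    x * r * x⁻¹ = r ∨ x * r * x⁻¹ = r * S.z b := by
  have := h.smul x
  rw [xb, xa] at this
  exact h.unique hab this

theorem Pr.ne (hb : C.τ b = S.t) (h : S.Pr b a r) : r ≠ 1 ∧ r ≠ S.z b := by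
  obtain ⟨a₁, a₂, c₁, c₂, h1, h2, h3, h4, h5, h6, h7, h8, h9, rfl⟩ := h
  constructor
  · intro e
    rw [mul_eq_one_iff_eq_inv, S.inv] at e
    exact S.inj2 hb h1 h2 h5 h6 h7 h8 h9 e
  · intro e
    obtain ⟨d, d1, d2, -, d4⟩ := S.exists_sib h1.symm h6 h7
    refine S.inj2 hb h1 h2 h5 d1 d2 h8 h9 ?_
    rw [d4, ← e, ← mul_assoc, S.sq, one_mul]

theorem Pr.mem_Q {k : ℕ} (h : S.Pr b a r) (hv : C.Near k b d) (hk : k + 2 < S.n) : r ∈ C.Q d := by
  obtain ⟨a₁, a₂, c₁, c₂, h1, h2, h3, h4, h5, h6, h7, h8, h9, rfl⟩ := h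
  exact mul_mem (S.zQ ((Near.two h6.symm h1.symm).trans hv) (by omega))
    (S.zQ ((Near.two h8.symm h2.symm).trans hv) (by omega))

theorem Pr.sq (h4 : 4 ≤ S.n) (h : S.Pr b a r) : r * r = 1 := by
  obtain ⟨a₁, a₂, c₁, c₂, h1, h2, -, -, -, h6, -, h8, -, rfl⟩ := h
  have c1 := S.zcomm (((Near.two h6.symm h1.symm).step h2).step h8) h4
  rw [mul_assoc, ← mul_assoc (S.z c₂), ← c1, mul_assoc, S.sq, mul_one, S.sq]

theorem pr_YL (h4 : 4 ≤ S.n) (hb : C.τ b = S.t) (h1 : C.Γ.Adj a b) (h2 : C.Γ.Adj a b')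
    (hbb : b ≠ b') (h : S.Pr b a r) (h' : S.Pr b' a r) : r = S.z b * S.z b' := by
  have hb' := S.ty_two hb h1 h2
  have hQ : r ∈ C.Q a := h.mem_Q (Near.adj h1.symm) (by omega)
  have hc : ∀ q ∈ C.Q a, r * q = q * r := by
    intro q hq
    rw [eq_comm, ← mul_inv_eq_iff_eq_mul]
    rcases h.conj h1.symm (hq.2 _ h1) hq.1 with e | e
    · exact e
    rcases h'.conj h2.symm (hq.2 _ h2) hq.1 with e' | e'
    · exact e'
    exact absurd (mul_left_cancel (e.symm.trans e')) (S.z_ne hb h1 h2 hbb)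
  obtain ⟨k, k1, k2, k3⟩ := exists_not_Q h1
  obtain ⟨m, m1, m2, m3⟩ := exists_not_Q h2
  have u1 := S.conj_fix k2
  have u2 := S.conj_not_Q h1 h2 hbb.symm k1 k2 k3
  have u3 := S.conj_fix m2
  have u4 := S.conj_not_Q h2 h1 hbb m1 m2 m3
  have c := S.comm_adj h1 h2
  have q1 := S.sq b
  have q2 := S.sq b'
  have key : ∀ w ∈ C.Q a, w * w = 1 → (∀ q ∈ C.Q a, w * q = q * w) →
      k * (r * w) * k⁻¹ = r * w → m * (r * w) * m⁻¹ = r * w → r = w := by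
    intro w hw hw2 hwc e1 e2
    rw [mul_inv_eq_iff_eq_mul] at e1 e2
    have e3 : r * w * (r * w) = 1 := by
      rw [mul_assoc, ← mul_assoc w, ← hc w hw, mul_assoc, hw2, mul_one, h.sq h4]
    have e5 := S.eq_one_of_Ze hb h1 (mem_Ze_of_comm h1 (mul_mem hQ hw) e3 (fun q hq => by
      rw [mul_assoc, hwc q hq, ← mul_assoc, hc q hq, mul_assoc]) k1 k2 k3 e1.symm)
      (locTrans_of_two h1 h2 hbb (mem_centralizer_singleton_iff.mpr e1) k1 k2 k3
        (mem_centralizer_singleton_iff.mpr e2) m1 m2 m3)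
    rw [mul_eq_one_iff_eq_inv, inv_eq_of_mul_eq_one_right hw2] at e5
    exact e5
  have z1 : ∀ q ∈ C.Q a, S.z b * q = q * S.z b := fun q hq => (S.comm (hq.2 _ h1)).symm
  have z2 : ∀ q ∈ C.Q a, S.z b' * q = q * S.z b' := fun q hq => (S.comm (hq.2 _ h2)).symm
  have dist : ∀ k u v : X, k * (u * v) * k⁻¹ = k * u * k⁻¹ * (k * v * k⁻¹) := by
    intro k u v; group
  rcases h.conj h1.symm k2 k1 with e | e <;> rcases h'.conj h2.symm m2 m1 with e' | e'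
  · exact absurd (key 1 (one_mem _) (by simp) (by simp) (by simpa using e) (by simpa using e'))
      (h.ne hb).1
  · refine absurd (key _ (S.mem_Q_adj h1) q1 z1 (by rw [dist, e, u1]) ?_) (h.ne hb).2
    rw [dist, e', u4, c, mul_assoc, ← mul_assoc (S.z b'), q2, one_mul]
  · refine absurd (key _ (S.mem_Q_adj h2) q2 z2 ?_ (by rw [dist, e', u3])) (h'.ne hb').2
    rw [dist, e, u2, ← c, mul_assoc, ← mul_assoc (S.z b), q1, one_mul]
  · refine key _ (mul_mem (S.mem_Q_adj h1) (S.mem_Q_adj h2)) ?_ (fun q hq => ?_) ?_ ?_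
    · rw [mul_assoc, ← mul_assoc (S.z b'), ← c, mul_assoc, q2, mul_one, q1]
    · rw [mul_assoc, z2 q hq, ← mul_assoc, z1 q hq, mul_assoc]
    · rw [dist, dist, e, u1, u2, mul_assoc r, ← mul_assoc (S.z b), q1, one_mul, c]
    · rw [dist, dist, e', u3, u4, mul_assoc (S.z b), q2, mul_one, mul_assoc, c]

/-- the group generated by the elements at distance two from a vertex has order eight -/
def Small (S : C.ZS) : Prop := ∀ b a r, C.τ b = S.t → C.Γ.Adj b a → S.Pr b a r →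
  ∃ e, C.Γ.Adj a e ∧ e ≠ b ∧ r = S.z e

theorem small_of (hb : C.τ b = S.t) (hab : C.Γ.Adj b a) (h : S.Pr b a r) (he : C.Γ.Adj a e)
    (heb : e ≠ b) (hr : r = S.z e) : S.Small := by
  intro b' a' r' hb' hab' h'
  obtain ⟨x, rfl, rfl⟩ := edge_trans hab hab' (hb.trans hb'.symm)
  have h1 := C.inv x _ _ he
  have h2 : x • e ≠ x • b := (MulAction.injective x).ne heb
  rcases (h.smul x).unique hab' h' with e1 | e1 <;> rw [hr, ← S.equiv] at e1
  · exact ⟨_, h1, h2, e1⟩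
  · obtain ⟨d, d1, d2, -, d4⟩ := S.exists_sib hab'.symm h1 h2
    exact ⟨d, d1, d2, e1.trans d4.symm⟩

theorem small_of_two (h4 : 4 ≤ S.n) (hb : C.τ b = S.t) (h1 : C.Γ.Adj a b) (h2 : C.Γ.Adj a b')
    (hbb : b ≠ b') (h : S.Pr b a r) (h' : S.Pr b' a r) : S.Small := by
  obtain ⟨d, d1, d2, d3⟩ := C.exists_third a b b'
  exact small_of hb h1.symm h d1 d2 ((pr_YL h4 hb h1 h2 hbb h h').trans (S.mul3 h1 h2 d1 hbb d2 d3))

/-- the commutator of the elements at distance `n + 2` -/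
theorem pr_line {m : ℕ} (hm : S.n = 2 * m) (hf : C.Line f) (hτ : C.τ (f 0) = S.t) :
    S.Pr (f S.n) (f (S.n - 1)) (S.z (f 0) * S.z (f (S.n + 2)) * S.z (f 0) * S.z (f (S.n + 2))) ∧
      S.Pr (f 2) (f 3) (S.z (f 0) * S.z (f (S.n + 2)) * S.z (f 0) * S.z (f (S.n + 2))) := by
  constructor
  · obtain ⟨a1, a2, a3, a4, a5⟩ := cr_swap hf (even_all hm hf hτ)
    exact ⟨_, f (S.n + 1), _, f (S.n + 2), a1, hf.adj rfl, a3, hf.ne' (by ring), a2, a4, a5,
      hf.adj (by ring), hf.ne' rfl, by rw [S.equiv, S.inv]⟩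
  · obtain ⟨a1, a2, a3, a4, a5⟩ := cr_swap (hf.rev (S.n + 2))
      (even_all hm (hf.rev (S.n + 2)) (ty_at hf hτ (m + 1) (by omega)))
    simp only [sub_zero, add_sub_cancel_left, sub_self, show (S.n : ℤ) + 2 - (S.n + 1) = 1 by ring,
      show (S.n : ℤ) + 2 - (S.n - 1) = 3 by ring] at a1 a2 a3 a4 a5
    exact ⟨f 1, _, f 0, _, hf.adj' rfl, a1, hf.ne rfl, a3, a2.symm, hf.adj' rfl, hf.ne rfl, a4, a5,
      by rw [S.equiv, S.inv]; group⟩

theorem even_small {m : ℕ} (hm : S.n = 2 * m) : S.Small := by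
  have h3 := S.three_le
  obtain ⟨f, hf, hc⟩ := S.exists_cr
  obtain ⟨p1, p2⟩ := pr_line hm hf hc.ty
  have hβ : C.τ (f S.n) = S.t := ty_at hf hc.ty m (by omega)
  by_cases h4 : S.n = 4
  · rw [h4] at p1 hβ
    exact small_of_two (by omega) hβ (hf.adj rfl) (hf.adj' rfl) (hf.ne' rfl) p1 (h4 ▸ p2)
  obtain ⟨g, hg, g1, g2⟩ := hf.vary_right (S.n - 1)
  rw [sub_add_cancel] at g2
  obtain ⟨p3, p4⟩ := pr_line hm hg ((congrArg C.τ (g1 0 (by omega))).trans hc.ty)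
  rw [g1 2 (by omega), g1 3 (by omega)] at p4
  rw [g1 (S.n - 1) le_rfl] at p3
  have ag : C.Γ.Adj (f (S.n - 1)) (g S.n) := g1 (S.n - 1) le_rfl ▸ hg.adj (by ring)
  have af : C.Γ.Adj (f (S.n - 1)) (f S.n) := hf.adj (by ring)
  rcases p2.unique (hf.adj rfl) p4 with e | e
  · exact small_of_two (by omega) hβ af ag g2.symm p1 (e ▸ p3)
  exfalso
  generalize S.z (g 0) * S.z (g (S.n + 2)) * S.z (g 0) * S.z (g (S.n + 2)) = r' at *
  generalize S.z (f 0) * S.z (f (S.n + 2)) * S.z (f 0) * S.z (f (S.n + 2)) = r at *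
  have r1 : r ∈ C.Q (f (S.n + 2)) := p1.mem_Q (hf.near 2 (by omega) (by omega)) (by omega)
  have r2 : r' ∈ C.Q (f (S.n + 2)) := by
    have n4 : C.Near 4 (g S.n) (f (S.n + 2)) :=
      (Near.adj ag.symm).trans (hf.near 3 (by omega) (by omega))
    by_cases h6 : 6 < S.n
    · exact p3.mem_Q n4 (by omega)
    obtain ⟨h, hh, h1, h2⟩ := hf.ext_left (S.n - 1) ag (by rwa [sub_add_cancel])
    have key : ∀ a c, C.Γ.Adj (g S.n) a → a ≠ f (S.n - 1) → C.Γ.Adj a c → c ≠ g S.n →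
        S.z c • f (S.n + 2) = f (S.n + 2) ∧ S.z c • f (S.n + 1) = f (S.n + 1) ∧
          S.z c ∉ C.Q (f (S.n + 2)) := by
      intro a c k1 k2 k3 k4
      obtain ⟨l, hl, l1, -, l3⟩ := hh.ext_left2 (S.n - 1 - 1) (h2 ▸ k1)
        (by rwa [sub_add_cancel, h1 _ le_rfl]) k3 (h2 ▸ k4)
      have l4 : ∀ j : ℤ, S.n - 1 ≤ j → l j = f j := fun j hj =>
        (l1 j (by omega)).trans (h1 j hj)
      rw [← l3, ← l4 _ (by omega), ← l4 _ (by omega)]
      refine ⟨S.lfix0 hl (by omega) (by omega), S.lfix0 hl (by omega) (by omega),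
        cr_at hm hl (ty_at hl (i := S.n) (by rwa [l4 _ (by omega)]) (-2) (by ring)) (by omega)⟩
    obtain ⟨a₁, a₂, c₁, c₂, k1, k2, k3, k4, -, k6, k7, k8, k9, rfl⟩ := p3
    obtain ⟨x1, x2, x3⟩ := key _ _ k1 k3 k6 k7
    obtain ⟨y1, y2, y3⟩ := key _ _ k2 k4 k8 k9
    exact mul_mem_Q (hf.adj' (by ring)) x1 x2 x3 y1 y2 y3
  refine cr_at hm hf (ty_at hf hc.ty 1 (j := 2) rfl) (j := S.n + 2) (by omega) ?_
  have := mul_mem (inv_mem r1) r2
  rwa [e, inv_mul_cancel_left] at this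

theorem six_rel {m : ℕ} (hm : S.n = 2 * m) (h6 : 6 ≤ S.n) (hf : C.Line f) (hτ : C.τ (f 0) = S.t) :
    S.n = 6 ∧ S.z (f 0) * S.z (f 8) * S.z (f 0) * S.z (f 8) = S.z (f 4) := by
  obtain ⟨p1, p2⟩ := pr_line hm hf hτ
  have hβ : C.τ (f S.n) = S.t := ty_at hf hτ m (by omega)
  obtain ⟨γ, c1, c2, c3⟩ := even_small hm _ _ _ hβ (hf.adj' (by ring)) p1
  obtain ⟨δ, d1, d2, d3⟩ := even_small hm _ _ _ (ty_at hf hτ 1 (j := 2) rfl) (hf.adj rfl) p2
  have e := c3.symm.trans d3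
  have e1 : δ = f 4 := by
    by_contra h
    obtain ⟨l, hl, l1, l2⟩ := hf.ext_left 3 d1 h
    refine cr_at hm hl (i := 3 - 1) (j := S.n + 2)
      (ty_at hl (i := 4) (by rw [l1 4 (by omega)]; exact ty_at hf hτ 2 rfl) (-1) rfl) (by omega) ?_
    rw [l2, ← e, l1 _ (by omega)]
    exact S.lQ hf (Near.adj c1.symm) (by omega) (by omega)
  have e2 : γ = f (S.n - 2) := by
    by_contra h
    obtain ⟨l, hl, l1, l2⟩ := hf.ext_right (S.n - 1) c1 (by rwa [sub_sub])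
    refine cr_at hm hl (i := S.n - 1 + 1) (j := 0)
      (ty_at hl (i := 0) (by rwa [l1 0 (by omega)]) m (by omega)) (by omega) ?_
    rw [l2, e, l1 _ (by omega)]
    exact S.lQ hf (Near.adj d1.symm) (by omega) (by omega)
  have e3 : S.n = 6 := by
    by_contra h
    refine cr_at hm hf (ty_at hf hτ 2 (j := 4) rfl) (j := S.n + 4) (by omega) ?_
    rw [← e1, ← e, e2]
    exact S.lQ0 hf (by omega) (by omega)
  refine ⟨e3, ?_⟩
  rw [e3, e1] at d3
  exact d3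

theorem even_eq_four {m : ℕ} (hm : S.n = 2 * m) : S.n = 4 := by
  have h3 := S.three_le
  by_contra h4
  have key : ∀ f, C.Line f → C.τ (f 0) = S.t →
      (S.z (f 0) * S.z (f 10)) ^ 4 = S.z (f 4) := by
    intro f hf hτ
    have h6 := (six_rel hm (by omega) hf hτ).1
    have s4 : S.z (f 10) • f 4 = f 4 := S.lfix0 hf (by omega) (by omega)
    have s5 : S.z (f 10) • f 5 = f 5 := S.lfix0 hf (by omega) (by omega)
    have hs : S.z (f 10) ∉ C.Q (f 4) := cr_at hm hf (ty_at hf hτ 5 rfl) (by omega)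
    have hl := hf.glue ((hf.rev 8).smul (S.z (f 10))) 4 s4.symm
      (smul_ne_self s4 (hf.adj rfl) s5 hs (hf.adj' rfl) (hf.ne rfl)).symm
    have := (six_rel hm (by omega) hl hτ).2
    simp only [Int.reduceLE, if_true, if_false, sub_self, le_refl] at this
    rw [← this, S.equiv, S.inv]
    simp only [pow_succ, pow_zero, one_mul, mul_assoc]
  obtain ⟨f, hf, hc⟩ := S.exists_cr
  have e1 := key f hf hc.ty
  have e2 := key _ (hf.rev 10) (ty_at hf hc.ty 5 rfl)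
  simp only [sub_zero, sub_self, Int.reduceSub] at e2
  refine S.z_ne (ty_at hf hc.ty 2 (j := 4) rfl) (hf.adj' (i := 5) rfl) (hf.adj (j := 6) rfl)
    (hf.ne rfl) ?_
  rw [← e2, ← S.inv (f 4), ← e1, ← inv_pow, mul_inv_rev, S.inv, S.inv]

theorem n_cases (S : C.ZS) : S.n = 3 ∨ S.n = 4 := by
  obtain ⟨m, h | h⟩ := Nat.even_or_odd' S.n
  · exact Or.inr (even_eq_four h)
  · exact Or.inl (odd_eq_three h)

end Cfsg.Lib.Local.Amal.Cubic.ZS
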