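import Cfsg.Agent.Local.CubicZ3

/-!
Systems of central involutions in cubic amalgams: radius three gives edge stabilisers of order at
most `64`.
-/

set_option autoImplicit false

namespace Cfsg.Lib.Local.Amal.Cubic

open Subgroup MulAction
open Cfsg.Lib.Trans hiding IsSylowIn exists_isSylowIn_ge exists_isSylowIn

variable {X : Type*} [Group X] {V : Type*} [MulAction X V] {C : Cubic X V} {f g : ℤ → V}

/-- the pointwise stabiliser of the ball of radius two -/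
def K2 (C : Cubic X V) (b : V) : Subgroup X where
  carrier := {k | k ∈ C.Q b ∧ ∀ a, C.Γ.Adj b a → k ∈ C.Q a}
  one_mem' := ⟨one_mem _, fun _ _ => one_mem _⟩
  mul_mem' := fun h h' => ⟨mul_mem h.1 h'.1, fun a ha => mul_mem (h.2 a ha) (h'.2 a ha)⟩
  inv_mem' := fun h => ⟨inv_mem h.1, fun a ha => inv_mem (h.2 a ha)⟩

theorem conj_mem_K2 {b c : V} {x k : X} (h : x • b = c) (hk : k ∈ C.K2 b) :
    x * k * x⁻¹ ∈ C.K2 c := by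
  subst h
  refine ⟨conj_mem_Q x hk.1, fun a ha => ?_⟩
  have h1 : C.Γ.Adj b (x⁻¹ • a) := by simpa using C.inv x⁻¹ _ _ ha
  simpa using conj_mem_Q x (hk.2 _ h1)

theorem mem_K2_of_three {b a₁ a₂ a₃ : V} {k : X} (h1 : C.Γ.Adj b a₁) (h2 : C.Γ.Adj b a₂)
    (h3 : C.Γ.Adj b a₃) (h12 : a₁ ≠ a₂) (h31 : a₃ ≠ a₁) (h32 : a₃ ≠ a₂) (hk : k ∈ C.Q b)
    (k1 : k ∈ C.Q a₁) (k2 : k ∈ C.Q a₂) (k3 : k ∈ C.Q a₃) : k ∈ C.K2 b :=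
  ⟨hk, fun a ha => by rcases adj_cases h1 h2 h3 h12 h31 h32 ha with rfl | rfl | rfl <;> assumption⟩

theorem mul_self_mem_Q {a b : V} {x : X} (hb : C.Γ.Adj a b) (xa : x • a = a) (xb : x • b = b) :
    x * x ∈ C.Q a := by
  by_cases h : x ∈ C.Q a
  · exact mul_mem h h
  · exact mul_mem_Q hb xa xb h xa xb h

namespace ZS

variable {S : C.ZS} {a a' b b' c d e : V} {x y r w k : X}

/-- `x` is an element at distance two from `b` in a branch away from `a` -/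
def Ou (S : C.ZS) (b a : V) (x : X) : Prop :=
  ∃ a₁ c, C.Γ.Adj b a₁ ∧ a₁ ≠ a ∧ C.Γ.Adj a₁ c ∧ c ≠ b ∧ x = S.z c

theorem exists_ou (S : C.ZS) (b a : V) : ∃ x, S.Ou b a x := by
  obtain ⟨a₁, h1, h2⟩ := C.exists_other b a
  obtain ⟨c₁, h6, h7⟩ := C.exists_other a₁ b
  exact ⟨_, a₁, c₁, h1, h2, h6, h7, rfl⟩

theorem Ou.mem_Q (h : S.Ou b a x) : x ∈ C.Q b := by
  obtain ⟨a₁, c, h1, -, h3, -, rfl⟩ := h
  exact S.zQ (Near.two h3.symm h1.symm) (by have := S.three_le; omega)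

theorem Ou.sq (h : S.Ou b a x) : x * x = 1 := by
  obtain ⟨a₁, c, -, -, -, -, rfl⟩ := h
  exact S.sq c

theorem mem_Q_of_comm (hb : C.τ b = S.t) (h1 : C.Γ.Adj a b) (h2 : C.Γ.Adj a c) (hc : c ≠ b)
    (ka : k • a = a) (kb : k • b = b) (h : k * S.z c = S.z c * k) : k ∈ C.Q a :=
  mem_Q_of_fix_two ka h1 h2 hc.symm kb (S.fix_of_comm (S.ty_two hb h1 h2) h2 ka h)

section three

variable (h3 : S.n = 3) (hb : C.τ b = S.t)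
include h3 hb

theorem Ou.not_Q3 (hab : C.Γ.Adj b a) (h : S.Ou b a x) : x ∉ C.Q a := by
  obtain ⟨a₁, c, h1, h2, h4, h5, rfl⟩ := h
  obtain ⟨f, hf, hc⟩ := S.exists_cr
  obtain ⟨k, hk⟩ := vertex_trans ((ty_at hf hc.ty 1 (j := 2) rfl).trans hb.symm)
  obtain ⟨m, m1, m2, m3⟩ := two_trans (hk ▸ C.inv k _ _ (hf.adj' (j := 1) rfl))
    (hk ▸ C.inv k _ _ (hf.adj (j := 3) rfl)) ((hf.smul k).ne (i := 1) (j := 3) rfl) h1 hab h2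
  rw [← hk] at m1
  rw [← mul_smul] at m1 m2 m3
  rw [hk] at m1
  have e1 := hc.smul (m * k)
  unfold Cr at e1
  simp only [h3, Nat.cast_ofNat] at e1
  rw [m3] at e1
  rcases S.sib h1.symm (m2 ▸ C.inv (m * k) _ _ (hf.adj' (j := 0) rfl)) h4
    (m1 ▸ (hf.smul (m * k)).ne rfl) h5 with e | e <;> rw [e]
  · exact e1
  · exact mul_not_mem_Q e1 (S.mem_Q_adj hab.symm)

theorem three_facts (h1 : C.Γ.Adj a b) (h2 : C.Γ.Adj a b') (hbb : b' ≠ b) (h : S.Pr b a w) :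
    S.z b' * w ∈ C.Q a ∧ S.z b' * w ∉ C.Q b' ∧ ∀ k ∈ C.K2 b', k * w = w * k := by
  have hb' := S.ty_two hb h1 h2
  have h' := h
  obtain ⟨a₁, a₂, c₁, c₂, k1, k2, k3, k4, k5, k6, k7, k8, k9, rfl⟩ := h'
  have o1 : S.Ou b a (S.z c₁) := ⟨a₁, c₁, k1, k3, k6, k7, rfl⟩
  have o2 : S.Ou b a (S.z c₂) := ⟨a₂, c₂, k2, k4, k8, k9, rfl⟩
  have o3 : S.Ou b a₂ (S.z c₁) := ⟨a₁, c₁, k1, k5, k6, k7, rfl⟩
  have o4 : S.Ou b a₁ (S.z b') := ⟨a, b', h1.symm, k3.symm, h2, hbb, rfl⟩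
  have o5 : S.Ou b a₂ (S.z b') := ⟨a, b', h1.symm, k4.symm, h2, hbb, rfl⟩
  have w1 : S.z c₁ * S.z c₂ ∈ C.Q a :=
    mul_mem_Q h1 (o1.mem_Q.2 _ h1.symm) o1.mem_Q.1 (o1.not_Q3 h3 hb h1.symm)
      (o2.mem_Q.2 _ h1.symm) o2.mem_Q.1 (o2.not_Q3 h3 hb h1.symm)
  have c2 := S.comm_adj k8 k2.symm
  have e1 := S.conj_not_Q k2.symm k8 k9 (o3.mem_Q.2 _ k2) o3.mem_Q.1 (o3.not_Q3 h3 hb k2)
  have e2 := S.conj_not_Q k1.symm k6 k7 (o4.mem_Q.2 _ k1) o4.mem_Q.1 (o4.not_Q3 h3 hb k1)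
  have e3 := S.conj_not_Q k2.symm k8 k9 (o5.mem_Q.2 _ k2) o5.mem_Q.1 (o5.not_Q3 h3 hb k2)
  have e4 : S.z b' * (S.z c₁ * S.z c₂) * (S.z b' * (S.z c₁ * S.z c₂)) = S.z b := by
    calc S.z b' * (S.z c₁ * S.z c₂) * (S.z b' * (S.z c₁ * S.z c₂))
        = (S.z b' * S.z c₁ * (S.z b')⁻¹) * (S.z b' * S.z c₂ * (S.z b')⁻¹) * (S.z b' * S.z b') *
          (S.z c₁ * S.z c₂) := by group
      _ = S.z c₁ * (S.z b * (S.z c₂ * S.z b)) * (S.z c₁)⁻¹ * S.z c₂ := by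
          rw [e2, e3, S.sq, S.inv]; group
      _ = S.z c₂ * S.z b * S.z c₂ := by rw [c2, ← mul_assoc (S.z b), S.sq, one_mul, e1, c2]
      _ = S.z b := by rw [c2, mul_assoc, S.sq, mul_one]
  obtain ⟨a₀, l1, l2⟩ := C.exists_other b' a
  have o6 : S.z b ∉ C.Q a₀ := Ou.not_Q3 h3 hb' l1 ⟨a, b, h2.symm, l2.symm, h1, hbb.symm, rfl⟩
  have w2 := mul_mem (S.mem_Q_adj h2) w1
  refine ⟨w2, fun hq => o6 (e4 ▸ mul_self_mem_Q l1.symm (hq.2 _ l1) hq.1), fun k hk => ?_⟩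
  rcases h.conj h1.symm ((hk.2 _ h2.symm).2 _ h1) (hk.1.2 _ h2.symm) with e | e
  · exact mul_inv_eq_iff_eq_mul.mp e
  refine absurd ?_ o6
  have e5 := (mul_mem (conj_mem_K2 (inv_smul_fix (w2.2 _ h2)) hk) (inv_mem hk)).2 _ l1
  have e6 : (S.z b' * (S.z c₁ * S.z c₂))⁻¹ * k * (S.z b' * (S.z c₁ * S.z c₂))⁻¹⁻¹ * k⁻¹ =
      (S.z b' * (S.z c₁ * S.z c₂))⁻¹ * ((k * S.z b' * k⁻¹) * (k * (S.z c₁ * S.z c₂) * k⁻¹)) := by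
    group
  rw [e6, e, S.conj_fix hk.1.1] at e5
  simpa [mul_assoc] using e5

theorem three_K (h1 : C.Γ.Adj a b) (h2 : C.Γ.Adj a b') (hbb : b' ≠ b) (h4 : C.Γ.Adj b a')
    (haa : a' ≠ a) (hk : k ∈ C.K2 b') (k1 : k ∈ C.Q b) (k2 : k ∈ C.Q a') : k ∈ C.K2 b := by
  obtain ⟨a₂, l1, l2, l3⟩ := C.exists_third b a a'
  obtain ⟨c₁, l4, l5⟩ := C.exists_other a' b
  obtain ⟨c₂, l6, l7⟩ := C.exists_other a₂ b
  have e1 := (three_facts h3 hb h1 h2 hbb ⟨a', a₂, c₁, c₂, h4, l1, haa, l2, l3.symm, l4, l5, l6, l7,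
    rfl⟩).2.2 k hk
  refine mem_K2_of_three h1.symm h4 l1 haa.symm l2 l3 k1 (hk.2 _ h2.symm) k2
    (mem_Q_of_comm hb l1.symm l6 l7 (k1.2 _ l1) k1.1 ?_)
  rw [← mul_assoc, S.comm (k2.2 _ l4), mul_assoc, mul_assoc] at e1
  exact mul_left_cancel e1

theorem three_bot (h1 : C.Γ.Adj a b) (h2 : C.Γ.Adj a b') (hbb : b' ≠ b) (hx : x ∈ C.K2 b)
    (hx' : x ∈ C.K2 b') : x = 1 := by
  have hb' := S.ty_two hb h1 h2
  obtain ⟨a₀, l1, l2⟩ := C.exists_other b' a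
  obtain ⟨b₀, l3, l4⟩ := C.exists_other a₀ b'
  obtain ⟨a₄, l5, l6⟩ := C.exists_other b a
  obtain ⟨b₅, l7, l8⟩ := C.exists_other a₄ b
  obtain ⟨w, hw⟩ := S.exists_pr b a
  obtain ⟨w', hw'⟩ := S.exists_pr b₀ a₀
  obtain ⟨p1, p2, p3⟩ := three_facts h3 hb h1 h2 hbb hw
  obtain ⟨q1, q2, q3⟩ := three_facts h3 (S.ty_two hb' l1.symm l3) l3 l1.symm l4.symm hw'
  have o1 : S.Ou b' a (S.z b₀) := ⟨a₀, b₀, l1, l2, l3, l4, rfl⟩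
  have o2 : S.Ou b a (S.z b₅) := ⟨a₄, b₅, l5, l6, l7, l8, rfl⟩
  have c : ∀ w, x * w = w * x → S.z b' * w ∈ centralizer {x} := fun w h => by
    rw [mem_centralizer_singleton_iff, mul_assoc, ← h, ← mul_assoc, ← S.comm hx'.1.1, mul_assoc]
  exact eq_one_of_central h2 (hx'.1.2 _ h2.symm) hx'.1.1
    (locTrans_of_two h2 h1 hbb
      (mem_centralizer_singleton_iff.mpr (S.comm ((hx'.2 _ l1).2 _ l3)).symm)
      (o1.mem_Q.2 _ h2.symm) o1.mem_Q.1 (o1.not_Q3 h3 hb' h2.symm)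
      (mem_centralizer_singleton_iff.mpr (S.comm ((hx.2 _ l5).2 _ l7)).symm)
      (o2.mem_Q.2 _ h1.symm) o2.mem_Q.1 (o2.not_Q3 h3 hb h1.symm))
    (locTrans_of_two h2.symm l1 l2.symm (c w (p3 x hx')) (p1.2 _ h2) p1.1 p2 (c w' (q3 x hx'))
      (q1.2 _ l1.symm) q1.1 q2)

theorem card_three (h1 : C.Γ.Adj b a) :
    Nat.card (stabilizer X b ⊓ stabilizer X a : Subgroup X) ≤ 64 := by
  obtain ⟨a₀, l1, l2⟩ := C.exists_other b a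
  obtain ⟨a₁, l3, l4, l5⟩ := C.exists_third b a a₀
  obtain ⟨b₃, l6, l7⟩ := C.exists_other a b
  obtain ⟨a₄, l8, l9⟩ := C.exists_other b₃ a
  have hb3 := S.ty_two hb h1.symm l6
  have e0 := card_edge h1
  have e1 := card_le_two_mul_inf_Q h1.symm (A := C.Q b) fun x hx => ⟨hx.2 _ h1, hx.1⟩
  have e2 := card_le_two_mul_inf_Q l1.symm (A := C.Q b ⊓ C.Q a) fun x hx => ⟨hx.1.2 _ l1, hx.1.1⟩
  have e3 := card_le_two_mul_inf_Q l3.symm (A := C.Q b ⊓ C.Q a ⊓ C.Q a₀)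
    fun x hx => ⟨hx.1.1.2 _ l3, hx.1.1.1⟩
  have e4 := card_le_two_mul_inf_Q l6.symm (A := C.Q b ⊓ C.Q a ⊓ C.Q a₀ ⊓ C.Q a₁)
    fun x hx => ⟨hx.1.1.2.2 _ l6, hx.1.1.2.1⟩
  have e5 := card_le_two_mul_inf_Q l8.symm (A := C.Q b ⊓ C.Q a ⊓ C.Q a₀ ⊓ C.Q a₁ ⊓ C.Q b₃)
    fun x hx => ⟨hx.2.2 _ l8, hx.2.1⟩
  have e6 : (C.Q b ⊓ C.Q a ⊓ C.Q a₀ ⊓ C.Q a₁ ⊓ C.Q b₃ ⊓ C.Q a₄ : Subgroup X) = ⊥ := by
    rw [eq_bot_iff]
    rintro x ⟨⟨⟨⟨⟨x1, x2⟩, x3⟩, x4⟩, x5⟩, x6⟩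
    have x7 := mem_K2_of_three h1 l1 l3 l2.symm l4 l5 x1 x2 x3 x4
    exact three_bot h3 hb3 l6 h1.symm l7.symm (three_K h3 hb3 l6 h1.symm l7.symm l8 l9 x7 x5 x6) x7
  rw [e6, card_bot] at e5
  omega

end three

end ZS

end Cfsg.Lib.Local.Amal.Cubic
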