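import Cfsg.Agent.Local.CubicZ4

/-!
Systems of central involutions in cubic amalgams: radius four gives edge stabilisers of order at
most `128`; the order bound for amalgams of type `(S₃, S₃)`.
-/

set_option autoImplicit false

namespace Cfsg.Lib.Local.Amal.Cubic

open Subgroup MulAction
open Cfsg.Lib.Trans hiding IsSylowIn exists_isSylowIn_ge exists_isSylowIn

variable {X : Type*} [Group X] {V : Type*} [MulAction X V] {C : Cubic X V} {f g : ℤ → V}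

namespace ZS

variable {S : C.ZS} {a a' b b' b₁ b₂ b₃ c d e : V} {x x' y r w k : X}

/-- the four-group generated by the elements at the neighbours of `a` -/
def Y (S : C.ZS) (a : V) : Subgroup X where
  carrier := {w | w = 1 ∨ ∃ e, C.Γ.Adj a e ∧ w = S.z e}
  one_mem' := Or.inl rfl
  mul_mem' := by
    rintro _ _ (rfl | ⟨e, he, rfl⟩) (rfl | ⟨e', he', rfl⟩)
    · exact Or.inl (one_mul _)
    · exact Or.inr ⟨e', he', one_mul _⟩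
    · exact Or.inr ⟨e, he, mul_one _⟩
    · by_cases h : e = e'
      · exact Or.inl (h ▸ S.sq e)
      · obtain ⟨d, d1, d2, d3⟩ := C.exists_third a e e'
        exact Or.inr ⟨d, d1, S.mul3 he he' d1 h d2 d3⟩
  inv_mem' := by
    rintro _ (rfl | ⟨e, he, rfl⟩)
    · exact Or.inl inv_one
    · exact Or.inr ⟨e, he, S.inv e⟩

theorem z_mem_Y (h : C.Γ.Adj a e) : S.z e ∈ S.Y a := Or.inr ⟨e, h, rfl⟩

theorem Y_comm (hy : y ∈ S.Y a) (hk : k ∈ C.Q a) : k * y = y * k := by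
  rcases hy with rfl | ⟨e, he, rfl⟩
  · simp
  · exact S.comm (hk.2 _ he)

theorem card_Y (S : C.ZS) (a : V) : Finite (S.Y a) ∧ Nat.card (S.Y a) ≤ 4 := by
  classical
  obtain ⟨u, v, w, -, -, -, h⟩ := C.exists_three a
  have h1 : (S.Y a : Set X) ⊆ ({1, S.z u, S.z v, S.z w} : Finset X) := by
    rintro _ (rfl | ⟨e, he, rfl⟩)
    · simp
    · rcases (h e).mp he with rfl | rfl | rfl <;> simp
  refine ⟨((Finset.finite_toSet _).subset h1).to_subtype, ?_⟩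
  have h2 := Set.ncard_le_ncard h1 (Finset.finite_toSet _)
  rw [Set.ncard_coe_finset] at h2
  exact (h2.trans Finset.card_le_four : (S.Y a : Set X).ncard ≤ 4)

theorem Ou.smul (h : S.Ou b a x) (kb : k • b = b) (ka : k • a = a) : S.Ou b a (k * x * k⁻¹) := by
  obtain ⟨a₁, c, h1, h2, h3, h4, rfl⟩ := h
  exact ⟨k • a₁, k • c, adj_smul kb h1, smul_ne ka h2, C.inv k _ _ h3, smul_ne kb h4,
    (S.equiv k c).symm⟩

theorem Ou.comm (h : S.Ou b a x) (hk : k ∈ C.K2 b) : k * x = x * k := by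
  obtain ⟨a₁, c, h1, -, h3, -, rfl⟩ := h
  exact S.comm ((hk.2 _ h1).2 _ h3)

theorem Ou.conj_Q (h : S.Ou b a x) (hk : k ∈ C.Q b) :
    k * x * k⁻¹ = x ∨ k * x * k⁻¹ = x * S.z b := by
  obtain ⟨a₁, c, h1, -, h3, h4, rfl⟩ := h
  exact S.conj_edge h1.symm h3 h4 (hk.2 _ h1) hk.1

section four

variable (h4 : S.n = 4)
include h4

theorem Ou.mem_Q4 (hab : C.Γ.Adj a b) (h : S.Ou b a x) : x ∈ C.Q a := by
  obtain ⟨a₁, c, h1, -, h3, -, rfl⟩ := h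
  exact S.zQ ((Near.two h3.symm h1.symm).step hab.symm) (by omega)

omit h4 in
theorem Ou.exists_line (h1 : C.Γ.Adj a b) (h2 : C.Γ.Adj a b') (hbb : b ≠ b') (h : S.Ou b a x) :
    ∃ f, C.Line f ∧ x = S.z (f 0) ∧ f 2 = b ∧ f 3 = a ∧ f 4 = b' := by
  obtain ⟨a₁, c, k1, k2, k3, k4, rfl⟩ := h
  obtain ⟨f, hf, e1, e2, e3⟩ := exists_line_three h1 h2 hbb 3
  obtain ⟨g, hg, g1, -, g3⟩ := hf.ext_left2 (3 - 1) (e1 ▸ k1) (by rwa [sub_add_cancel, e2]) k3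
    (e1 ▸ k4)
  exact ⟨g, hg, congrArg S.z g3.symm, (g1 2 (by omega)).trans e1, (g1 3 (by omega)).trans e2,
    (g1 4 (by omega)).trans e3⟩

variable (hb : C.τ b = S.t)
include hb

theorem Ou.not_Q4 (h1 : C.Γ.Adj a b) (h2 : C.Γ.Adj a b') (hbb : b ≠ b') (h : S.Ou b a x) :
    x ∉ C.Q b' := by
  obtain ⟨f, hf, rfl, rfl, -, rfl⟩ := h.exists_line h1 h2 hbb
  exact cr_at (m := 2) h4 hf (ty_at hf hb (-1) rfl) (by omega)

theorem Ou.rel (hab : C.Γ.Adj a b) (h : S.Ou b a x) (h' : S.Ou b a x') :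
    ∃ y ∈ S.Y a, x' = x * y := by
  obtain ⟨a₁, c, k1, k2, k3, k4, rfl⟩ := h
  obtain ⟨a₂, c', l1, l2, l3, l4, rfl⟩ := h'
  by_cases e : a₁ = a₂
  · subst e
    rcases S.sib k1.symm k3 l3 k4 l4 with e | e
    · exact ⟨1, one_mem _, by simpa using e⟩
    · exact ⟨_, z_mem_Y hab, e⟩
  · obtain ⟨e, e1, -, e3⟩ := even_small (m := 2) h4 b a _ hb hab.symm
      ⟨a₁, a₂, c, c', k1, l1, k2, l2, e, k3, k4, l3, l4, rfl⟩
    exact ⟨_, z_mem_Y e1, by rw [← e3, ← mul_assoc, S.sq, one_mul]⟩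

theorem Ou.conj4 (h1 : C.Γ.Adj a b) (h2 : C.Γ.Adj a b') (h3 : C.Γ.Adj a d) (hbb : b ≠ b')
    (hd : d ≠ b) (hd' : d ≠ b') (h : S.Ou b a x) (h' : S.Ou b' a x') :
    x * x' * x⁻¹ = x' * S.z d := by
  have q := h'.sq
  have c := Y_comm (z_mem_Y (S := S) h3) (h'.mem_Q4 h4 h2)
  obtain ⟨f, hf, rfl, e2, e3, e4⟩ := h.exists_line h1 h2 hbb
  obtain ⟨a₁, c', k1, k2, k3, k4, rfl⟩ := h'
  obtain ⟨g, hg, g1, -, g3⟩ := (hf.rev 6).ext_left2 2 (by simpa [e4] using k1)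
    (by simpa [e3] using k2) k3 (by simpa [e4] using k4)
  have g4 : ∀ j : ℤ, j ≤ 4 → g (6 - j) = f j := fun j hj => by
    rw [g1 _ (by omega)]; simp
  obtain ⟨p1, p2⟩ := pr_line (m := 2) h4 (hg.rev 6) (by
    simp only [g4 0 (by omega)]; exact ty_at hf (e2 ▸ hb) (-1) rfl)
  simp only [h4, Nat.cast_ofNat, Int.reduceAdd, Int.reduceSub] at p1 p2 g3
  have i0 := g4 0 (by omega)
  have i2 := g4 2 (by omega)
  have i3 := g4 3 (by omega)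
  have i4 := g4 4 (by omega)
  simp only [Int.reduceSub, sub_zero] at i0 i2 i3 i4
  rw [i0, i3, g3, e3] at p1 p2
  rw [i4, e4] at p1
  rw [i2, e2] at p2
  have e := (pr_YL (by omega) hb h1 h2 hbb p2 p1).trans (S.mul3 h1 h2 h3 hbb hd hd')
  rw [S.inv, c, ← e]
  simp only [mul_assoc, q, mul_one]

theorem mem_K2_of_two (h1 : C.Γ.Adj a b) (h2 : C.Γ.Adj b a') (haa : a' ≠ a) (k1 : k ∈ C.Q b)
    (k2 : k ∈ C.Q a) (k3 : k ∈ C.Q a') : k ∈ C.K2 b := by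
  obtain ⟨a₂, l1, l2, l3⟩ := C.exists_third b a a'
  obtain ⟨c₁, l4, l5⟩ := C.exists_other a' b
  obtain ⟨c₂, l6, l7⟩ := C.exists_other a₂ b
  obtain ⟨y, hy, e⟩ := Ou.rel h4 hb h1 ⟨a', c₁, h2, haa, l4, l5, rfl⟩ ⟨a₂, c₂, l1, l2, l6, l7, rfl⟩
  refine mem_K2_of_three h1.symm h2 l1 haa.symm l2 l3 k1 k2 k3
    (mem_Q_of_comm hb l1.symm l6 l7 (k1.2 _ l1) k1.1 ?_)
  rw [e, ← mul_assoc, S.comm (k3.2 _ l4), mul_assoc, Y_comm hy k2, mul_assoc]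

theorem mem_K2_of_comm (h1 : C.Γ.Adj a b) (h : S.Ou b a x) (k2 : k ∈ C.Q a)
    (hc : k * x = x * k) : k ∈ C.K2 b := by
  obtain ⟨a₁, c, l1, l2, l3, l4, rfl⟩ := h
  have kb := k2.2 _ h1
  have ka : k • a₁ = a₁ := by
    by_contra h
    refine S.inj2 hb (adj_smul kb l1) l1 h (C.inv k _ _ l3) (smul_ne kb l4) l3 l4 ?_
    rw [S.equiv, hc, mul_inv_cancel_right]
  exact mem_K2_of_two h4 hb h1 l1 l2 (mem_Q_of_fix_two kb h1.symm l1 l2.symm k2.1 ka) k2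
    (mem_Q_of_comm hb l1.symm l3 l4 ka kb hc)

theorem conj_not_K2 (h1 : C.Γ.Adj a b) (h : S.Ou b a x) (k1 : k ∈ C.Q b) (k2 : k ∈ C.Q a)
    (hk : k ∉ C.K2 b) : k * x * k⁻¹ = x * S.z b :=
  (h.conj_Q k1).resolve_left fun e => hk (mem_K2_of_comm h4 hb h1 h k2 (mul_inv_eq_iff_eq_mul.mp e))

/-- an element of `Q a ⊓ Q b` acting nontrivially at the other neighbours of `b` -/
theorem exists_u (h1 : C.Γ.Adj a b) : ∃ u ∈ C.Q b, (∀ a', C.Γ.Adj b a' → a' ≠ a → u ∉ C.Q a') ∧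
    (∀ k ∈ C.Q a, ∃ y ∈ S.Y a, k * u * k⁻¹ = u * y) ∧
    ∀ k : X, (∀ c, C.Γ.Adj a c → k ∈ C.K2 c) → k * u = u * k := by
  obtain ⟨b₁, l1, l2⟩ := C.exists_other a b
  obtain ⟨b₂, l3, l4, l5⟩ := C.exists_third a b b₁
  obtain ⟨x₁, o1⟩ := S.exists_ou b₁ a
  obtain ⟨x₂, o2⟩ := S.exists_ou b₂ a
  have t1 := S.ty_two hb h1 l1
  have t2 := S.ty_two hb h1 l3
  have q1 := o1.mem_Q4 h4 l1
  have q2 := o2.mem_Q4 h4 l3
  refine ⟨x₁ * x₂, mul_mem_Q h1.symm (q1.2 _ h1) q1.1 (o1.not_Q4 h4 t1 l1 h1 l2) (q2.2 _ h1) q2.1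
    (o2.not_Q4 h4 t2 l3 h1 l4), fun a' m1 m2 hu => ?_, fun k hk => ?_, fun k hk => ?_⟩
  · obtain ⟨c, m3, m4⟩ := C.exists_other a' b
    have o3 : S.Ou b a (S.z c) := ⟨a', c, m1, m2, m3, m4, rfl⟩
    have e1 := S.conj_fix (hu.2 _ m3)
    have e2 : x₁ * x₂ * S.z c * (x₁ * x₂)⁻¹ = x₁ * (x₂ * S.z c * x₂⁻¹) * x₁⁻¹ := by group
    have e3 : ∀ u v : X, x₁ * (u * v) * x₁⁻¹ = x₁ * u * x₁⁻¹ * (x₁ * v * x₁⁻¹) := by
      intro u v; group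
    rw [e2, o2.conj4 h4 t2 l3 h1 l1 l4 l5.symm l2 o3, e3, o1.conj4 h4 t1 l1 h1 l3 l2 l5 l4 o3,
      S.conj_fix (q1.2 _ l1), mul_assoc, S.mul3 l3 l1 h1 l5 l4.symm l2.symm] at e1
    exact S.ne b hb (by simpa using e1)
  · obtain ⟨y₁, y1, e1⟩ := o1.rel h4 t1 l1 (o1.smul (hk.2 _ l1) hk.1)
    obtain ⟨y₂, y2, e2⟩ := o2.rel h4 t2 l3 (o2.smul (hk.2 _ l3) hk.1)
    refine ⟨y₁ * y₂, mul_mem y1 y2, ?_⟩
    calc k * (x₁ * x₂) * k⁻¹ = k * x₁ * k⁻¹ * (k * x₂ * k⁻¹) := by group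
      _ = x₁ * (y₁ * x₂) * y₂ := by rw [e1, e2]; group
      _ = _ := by rw [← Y_comm y1 q2]; group
  · rw [← mul_assoc, o1.comm (hk _ l1), mul_assoc, o2.comm (hk _ l3), mul_assoc]

theorem four_JL (h1 : C.Γ.Adj a b) (h2 : C.Γ.Adj a b₂) (h3 : C.Γ.Adj a b₃) (h12 : b ≠ b₂)
    (h31 : b₃ ≠ b) (h32 : b₃ ≠ b₂) (k1 : k ∈ C.K2 b) (k2 : k ∈ C.K2 b₂) (k3 : k ∈ C.Q b₃) :
    k ∈ C.K2 b₃ := by
  by_contra hk
  have t3 := S.ty_two hb h1 h3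
  obtain ⟨x, o⟩ := S.exists_ou b₃ a
  have e1 := conj_not_K2 h4 t3 h3 o k3 (k1.2 _ h1.symm) hk
  obtain ⟨a₀, l1, l2⟩ := C.exists_other b a
  obtain ⟨u, u1, u2, u3, -⟩ := exists_u h4 hb l1.symm
  obtain ⟨y, hy, e2⟩ := u3 k (k1.2 _ l1)
  have e3 : u⁻¹ • b₂ = b₃ := smul_eq_other (inv_smul_fix (u1.2 _ h1.symm)) h1 (inv_smul_fix u1.1)
    (fun h => u2 a h1.symm l2.symm (by simpa using inv_mem h)) h2 h12.symm h3 h31 h32
  have e4 := o.comm (conj_mem_K2 e3 k2)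
  have e5 : u⁻¹ * k * u⁻¹⁻¹ = y * k := by
    calc u⁻¹ * k * u⁻¹⁻¹ = u⁻¹ * (k * u * k⁻¹) * k := by group
      _ = y * k := by rw [e2]; group
  have e6 : y * (x * S.z b₃) * y⁻¹ = x := by
    rw [e5] at e4
    calc y * (x * S.z b₃) * y⁻¹ = y * k * x * (y * k)⁻¹ := by rw [← e1]; group
      _ = x := by rw [e4]; group
  have e7 : ∀ y : X, y • b₃ = b₃ → y * (x * S.z b₃) * y⁻¹ = y * x * y⁻¹ * S.z b₃ := by
    intro y hy
    conv_rhs => rw [← S.conj_fix hy]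
    group
  rcases hy with rfl | ⟨c, hc, rfl⟩
  · exact S.ne _ t3 (by simpa using e6)
  by_cases hcb : c = b
  · rw [hcb, e7 _ ((S.mem_Q_adj h1).2 _ h3), ← S.comm ((o.mem_Q4 h4 h3).2 _ h1),
      mul_inv_cancel_right] at e6
    exact S.ne _ t3 (by simpa using e6)
  · have o' : S.Ou b a (S.z c) := ⟨a₀, c, l1, l2, hc, hcb, rfl⟩
    rw [e7 _ ((o'.mem_Q4 h4 h1).2 _ h3), o'.conj4 h4 hb h1 h3 h2 h31.symm h12.symm h32.symm o,
      mul_assoc, S.mul3 h2 h3 h1 h32.symm h12 h31.symm] at e6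
    exact S.ne _ hb (by simpa using e6)

theorem four_KL (h1 : C.Γ.Adj a b) (h2 : C.Γ.Adj a b₂) (h3 : C.Γ.Adj a b₃) (h12 : b ≠ b₂)
    (h31 : b₃ ≠ b) (h32 : b₃ ≠ b₂) (k1 : k ∈ C.K2 b) (k2 : k ∈ C.Q b₂) (k3 : k ∈ C.Q b₃) :
    k ∈ C.K2 b₂ ∧ k ∈ C.K2 b₃ := by
  have t2 := S.ty_two hb h1 h2
  have t3 := S.ty_two hb h1 h3
  by_cases m2 : k ∈ C.K2 b₂
  · exact ⟨m2, four_JL h4 hb h1 h2 h3 h12 h31 h32 k1 m2 k3⟩
  by_cases m3 : k ∈ C.K2 b₃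
  · exact ⟨four_JL h4 hb h1 h3 h2 h31.symm h12.symm h32.symm k1 m3 k2, m3⟩
  exfalso
  obtain ⟨x₁, o1⟩ := S.exists_ou b a
  obtain ⟨x₂, o2⟩ := S.exists_ou b₂ a
  obtain ⟨x₃, o3⟩ := S.exists_ou b₃ a
  have ka := k1.2 _ h1.symm
  have q1 := o1.mem_Q4 h4 h1
  have q2 := o2.mem_Q4 h4 h2
  have q3 := o3.mem_Q4 h4 h3
  have key : ∀ {p u v w x : X}, p ∈ C.Q a → u ∈ S.Y a → v ∈ S.Y a → x * w * x⁻¹ = w * u →
      x ∈ C.Q a → p * w * p⁻¹ = w * v → p * x * w * (p * x)⁻¹ = w * (v * u) := by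
    intro p u v w x hp hu hv e1 hx e2
    calc p * x * w * (p * x)⁻¹ = p * (x * w * x⁻¹) * p⁻¹ := by group
      _ = p * w * (u * p⁻¹) := by rw [e1]; group
      _ = p * w * p⁻¹ * u := by rw [← Y_comm hu (inv_mem hp)]; group
      _ = _ := by rw [e2]; group
  have one : ∀ {x w : X}, x * w = w * x → x * w * x⁻¹ = w * 1 := fun h => by rw [h]; simp
  have y1 := z_mem_Y (S := S) h1
  have y2 := z_mem_Y (S := S) h2
  have y3 := z_mem_Y (S := S) h3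
  have y0 := (S.Y a).one_mem
  have j1 := key ka (mul_mem y3 (mul_mem y2 y0)) y0 (key q2 (mul_mem y2 y0) y3
    (key q3 y0 y2 (one (x := x₁) rfl) q1 (o3.conj4 h4 t3 h3 h1 h2 h31 h32.symm h12.symm o1))
    (mul_mem q3 q1) (o2.conj4 h4 t2 h2 h1 h3 h12.symm h32 h31 o1))
    (mul_mem q2 (mul_mem q3 q1)) (one (o1.comm k1))
  have j2 := key ka (mul_mem y0 (mul_mem y1 y3)) y2 (key q2 (mul_mem y1 y3) y0
    (key q3 y3 y1 (o1.conj4 h4 hb h1 h2 h3 h12 h31 h32 o2) q1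
      (o3.conj4 h4 t3 h3 h2 h1 h32 h31.symm h12 o2))
    (mul_mem q3 q1) (one rfl)) (mul_mem q2 (mul_mem q3 q1)) (conj_not_K2 h4 t2 h2 o2 k2 ka m2)
  have j3 := key ka (mul_mem y1 (mul_mem y0 y2)) y3 (key q2 (mul_mem y0 y2) y1
    (key q3 y2 y0 (o1.conj4 h4 hb h1 h3 h2 h31.symm h12.symm h32.symm o3) q1 (one rfl))
    (mul_mem q3 q1) (o2.conj4 h4 t2 h2 h3 h1 h32.symm h12 h31.symm o3))
    (mul_mem q2 (mul_mem q3 q1)) (conj_not_K2 h4 t3 h3 o3 k3 ka m3)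
  rw [one_mul, S.mul3 h1 h3 h2 h31.symm h12.symm h32.symm, S.sq, mul_one,
    mul_inv_eq_iff_eq_mul] at j2
  rw [one_mul, S.mul3 h1 h2 h3 h12 h31 h32, S.sq, mul_one, mul_inv_eq_iff_eq_mul] at j3
  rw [one_mul, mul_one, S.mul3 h3 h2 h1 h32 h31.symm h12] at j1
  have jq := mul_mem ka (mul_mem q2 (mul_mem q3 q1))
  have jb : k * (x₂ * (x₃ * x₁)) ∈ C.Q b := by
    rw [← mul_assoc x₂]
    exact mul_mem k1.1 (mul_mem (mul_mem_Q h1.symm (q2.2 _ h1) q2.1 (o2.not_Q4 h4 t2 h2 h1 h12.symm)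
      (q3.2 _ h1) q3.1 (o3.not_Q4 h4 t3 h3 h1 h31)) o1.mem_Q)
  have j4 := o1.comm (four_JL h4 t2 h2 h3 h1 h32.symm h12 h31.symm (mem_K2_of_comm h4 t2 h2 o2 jq j2)
    (mem_K2_of_comm h4 t3 h3 o3 jq j3) jb)
  rw [j4, mul_inv_cancel_right] at j1
  exact S.ne b hb (by simpa using j1)

theorem four_M1 (h1 : C.Γ.Adj a b) (h2 : C.Γ.Adj b a') (haa : a' ≠ a) (h3 : C.Γ.Adj a c)
    (hc : c ≠ b) (hk : ∀ e, C.Γ.Adj a e → k ∈ C.K2 e) :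
    ∃ y, (y = 1 ∨ y = S.z c) ∧ ∀ e, C.Γ.Adj a' e → k * y ∈ C.K2 e := by
  obtain ⟨b₅, l1, l2⟩ := C.exists_other a' b
  obtain ⟨b₆, l3, l4, l5⟩ := C.exists_third a' b b₅
  have o : S.Ou b a' (S.z c) := ⟨a, c, h1.symm, haa.symm, h3, hc, rfl⟩
  have key : ∀ k : X, (∀ e, C.Γ.Adj a e → k ∈ C.K2 e) → k ∈ C.Q b₅ →
      ∀ e, C.Γ.Adj a' e → k ∈ C.K2 e := by
    intro k hk k5
    obtain ⟨u, u1, u2, -, u4⟩ := exists_u h4 hb h1
    have k6 := conj_mem_Q u k5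
    rw [← u4 k hk, mul_inv_cancel_right, smul_eq_other (u1.2 _ h2) h2.symm u1.1 (u2 _ h2 haa) l1 l2
      l3 l4 l5] at k6
    obtain ⟨m1, m2⟩ := four_KL h4 hb h2.symm l1 l3 l2.symm l4 l5 (hk b h1) k5 k6
    intro e he
    rcases adj_cases h2.symm l1 l3 l2.symm l4 l5 he with rfl | rfl | rfl
    exacts [hk _ h1, m1, m2]
  by_cases k5 : k ∈ C.Q b₅
  · exact ⟨1, Or.inl rfl, by simpa using key k hk k5⟩
  have ka := (hk b h1).2 _ h2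
  have q := o.mem_Q4 h4 h2.symm
  refine ⟨_, Or.inr rfl, key _ (fun e he => mul_mem (hk e he) ⟨S.zQ (Near.two h3.symm he) (by omega),
    fun a₁ ha => S.zQ ((Near.two h3.symm he).step ha) (by omega)⟩)
    (mul_mem_Q l1.symm (ka.2 _ l1) ka.1 k5 (q.2 _ l1) q.1 (o.not_Q4 h4 hb h2.symm l1 l2.symm))⟩

omit hb in
theorem z_mem_M (h1 : C.Γ.Adj a c) (hy : y = 1 ∨ y = S.z c) (he : C.Γ.Adj a e) : y ∈ C.K2 e := by
  rcases hy with rfl | rfl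
  · exact one_mem _
  · exact ⟨S.zQ (Near.two h1.symm he) (by omega),
      fun a₁ ha => S.zQ ((Near.two h1.symm he).step ha) (by omega)⟩

theorem four_ML (h1 : C.Γ.Adj a b) (hk : ∀ e, C.Γ.Adj a e → k ∈ C.K2 e) : k ∈ S.Y a := by
  obtain ⟨b₁, l1, l2⟩ := C.exists_other a b
  obtain ⟨a₄, l3, l4⟩ := C.exists_other b a
  obtain ⟨a₀, l5, l6⟩ := C.exists_other b₁ a
  obtain ⟨b₅, l7, l8⟩ := C.exists_other a₄ b
  have t1 := S.ty_two hb h1 l1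
  obtain ⟨y, y1, y2⟩ := four_M1 h4 hb h1 l3 l4 l1 l2 hk
  have y3 : ∀ e, C.Γ.Adj a e → k * y ∈ C.K2 e := fun e he =>
    mul_mem (hk e he) (z_mem_M h4 l1 y1 he)
  obtain ⟨y', z1, z2⟩ := four_M1 h4 t1 l1 l5 l6 h1 l2.symm y3
  have z3 : ∀ e, C.Γ.Adj a e → k * y * y' ∈ C.K2 e := fun e he =>
    mul_mem (y3 e he) (z_mem_M h4 h1 z1 he)
  have z4 : ∀ e, C.Γ.Adj a₄ e → k * y * y' ∈ C.K2 e := fun e he =>
    mul_mem (y2 e he) (z_mem_M h4 l3.symm z1 he)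
  obtain ⟨x₁, o1⟩ := S.exists_ou b₁ a
  obtain ⟨x₅, o5⟩ := S.exists_ou b₅ a₄
  obtain ⟨u, u1, u2, -, u4⟩ := exists_u h4 hb l3.symm
  obtain ⟨u', v1, v2, -, v4⟩ := exists_u h4 t1 l5.symm
  have q1 := o1.mem_Q4 h4 l1
  have q5 := o5.mem_Q4 h4 l7
  have e := eq_one_of_central h1 ((z3 b h1).1.2 _ h1.symm) (z3 b h1).1.1
    (locTrans_of_two h1 l1 l2.symm (mem_centralizer_singleton_iff.mpr (u4 _ z4).symm)
      (u1.2 _ h1.symm) u1.1 (u2 _ h1.symm l4.symm)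
      (mem_centralizer_singleton_iff.mpr (v4 _ z2).symm) (v1.2 _ l1.symm) v1.1
      (v2 _ l1.symm l6.symm))
    (locTrans_of_two h1.symm l3 l4.symm
      (mem_centralizer_singleton_iff.mpr (o1.comm (z3 _ l1)).symm) (q1.2 _ h1) q1.1
      (o1.not_Q4 h4 t1 l1 h1 l2)
      (mem_centralizer_singleton_iff.mpr (o5.comm (z4 _ l7)).symm) (q5.2 _ l3.symm) q5.1
      (o5.not_Q4 h4 (S.ty_two hb l3.symm l7) l7 l3.symm l8))
  rw [mul_assoc, mul_eq_one_iff_eq_inv] at e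
  rw [e]
  refine inv_mem (mul_mem ?_ ?_)
  · rcases y1 with rfl | rfl
    exacts [one_mem _, z_mem_Y l1]
  · rcases z1 with rfl | rfl
    exacts [one_mem _, z_mem_Y h1]

theorem card_four (h1 : C.Γ.Adj b a) :
    Nat.card (stabilizer X b ⊓ stabilizer X a : Subgroup X) ≤ 128 := by
  obtain ⟨a₄, l1, l2⟩ := C.exists_other b a
  obtain ⟨b₁, l3, l4⟩ := C.exists_other a b
  obtain ⟨b₂, l5, l6, l7⟩ := C.exists_third a b b₁
  have e0 := card_edge h1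
  have e1 := card_le_two_mul_inf_Q h1.symm (A := C.Q b) fun x hx => ⟨hx.2 _ h1, hx.1⟩
  have e2 := card_le_two_mul_inf_Q l1.symm (A := C.Q b ⊓ C.Q a) fun x hx => ⟨hx.1.2 _ l1, hx.1.1⟩
  have e3 := card_le_two_mul_inf_Q l3.symm (A := C.Q b ⊓ C.Q a ⊓ C.Q a₄)
    fun x hx => ⟨hx.1.2.2 _ l3, hx.1.2.1⟩
  have e4 := card_le_two_mul_inf_Q l5.symm (A := C.Q b ⊓ C.Q a ⊓ C.Q a₄ ⊓ C.Q b₁)
    fun x hx => ⟨hx.1.1.2.2 _ l5, hx.1.1.2.1⟩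
  have e6 : (C.Q b ⊓ C.Q a ⊓ C.Q a₄ ⊓ C.Q b₁ ⊓ C.Q b₂ : Subgroup X) ≤ S.Y a := by
    rintro x ⟨⟨⟨⟨x1, x2⟩, x3⟩, x4⟩, x5⟩
    have x6 := mem_K2_of_two h4 hb h1.symm l1 l2 x1 x2 x3
    obtain ⟨x7, x8⟩ := four_KL h4 hb h1.symm l3 l5 l4.symm l6 l7 x6 x4 x5
    refine four_ML h4 hb h1.symm fun e he => ?_
    rcases adj_cases h1.symm l3 l5 l4.symm l6 l7 he with rfl | rfl | rfl
    exacts [x6, x7, x8]
  obtain ⟨i1, i2⟩ := S.card_Y a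
  have e7 := card_le_of_le e6
  omega

end four

end ZS

theorem card_edge_le_of_not_char {a b : V} (hb : C.Γ.Adj a b) (h : ¬ C.CharAt a) :
    Nat.card (stabilizer X b ⊓ stabilizer X a : Subgroup X) ≤ 16 := by
  unfold CharAt at h
  push Not at h
  obtain ⟨x, x1, x2, x3⟩ := h
  have h1 : LocTrans C.Γ (centralizer (C.Q a : Set X)) a := by
    refine locTrans_of_normal (x := x) (fun q hq => (x2 q hq).symm) x1 x3 ?_
    intro k hk n hn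
    have : k ∈ normalizer (C.Q a : Set X) := by
      rw [← cj_eq_self_iff, ← Q_smul, hk]
    exact mem_normalizer_conj (Trans.normalizer_le_normalizer_centralizer _ this) hn
  have h2 : ∀ n ∈ (C.K2 b : Set X), n = 1 :=
    eq_one_of_set hb h1 (C.trans b) (fun n hn => ⟨hn.1.2 _ hb.symm, hn.1.1⟩)
      (fun k hk n hn => by rw [← hk n (hn.2 _ hb.symm), mul_inv_cancel_right]; exact hn)
      fun k hk n hn => conj_mem_K2 hk hn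
  obtain ⟨a₀, l1, l2⟩ := C.exists_other b a
  obtain ⟨a₁, l3, l4, l5⟩ := C.exists_third b a a₀
  have e0 := card_edge hb.symm
  have e1 := card_le_two_mul_inf_Q hb (A := C.Q b) fun x hx => ⟨hx.2 _ hb.symm, hx.1⟩
  have e2 := card_le_two_mul_inf_Q l1.symm (A := C.Q b ⊓ C.Q a) fun x hx => ⟨hx.1.2 _ l1, hx.1.1⟩
  have e3 := card_le_two_mul_inf_Q l3.symm (A := C.Q b ⊓ C.Q a ⊓ C.Q a₀)
    fun x hx => ⟨hx.1.1.2 _ l3, hx.1.1.1⟩
  have e6 : (C.Q b ⊓ C.Q a ⊓ C.Q a₀ ⊓ C.Q a₁ : Subgroup X) = ⊥ := by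
    rw [eq_bot_iff]
    rintro x ⟨⟨⟨x1, x2⟩, x3⟩, x4⟩
    exact h2 x (mem_K2_of_three hb.symm l1 l3 l2.symm l4 l5 x1 x2 x3 x4)
  rw [e6, card_bot] at e3
  omega

/-- The order bound for edge stabilisers of cubic amalgam graphs. -/
theorem card_edge_le {a b : V} (hb : C.Γ.Adj a b) :
    Nat.card (stabilizer X a ⊓ stabilizer X b : Subgroup X) ≤ 128 := by
  by_cases h1 : C.CharAt a
  swap
  · rw [inf_comm]; exact (card_edge_le_of_not_char hb h1).trans (by norm_num)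
  by_cases h2 : C.CharAt b
  swap
  · exact (card_edge_le_of_not_char hb.symm h2).trans (by norm_num)
  have h3 := charTwo_of_edge hb h1 h2
  by_cases hn : ∀ c, ¬ C.Cen c
  · exact (card_edge_le_nc h3 hn hb).trans (by norm_num)
  push Not at hn
  obtain ⟨c, hc⟩ := hn
  obtain ⟨S⟩ := exists_zs h3 hc
  have key : ∀ {a b : V}, C.Γ.Adj b a → C.τ b = S.t →
      Nat.card (stabilizer X b ⊓ stabilizer X a : Subgroup X) ≤ 128 := by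
    intro a b hb ht
    rcases S.n_cases with h | h
    · exact (ZS.card_three h ht hb).trans (by norm_num)
    · exact ZS.card_four h ht hb
  by_cases ht : C.τ a = S.t
  · exact key hb ht
  · rw [inf_comm]
    exact key hb.symm (bool_eq_of_ne_of_ne (C.ty_adj hb).symm (Ne.symm ht))

end Cfsg.Lib.Local.Amal.Cubic
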